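import Mathlib

set_option autoImplicit false

namespace Cfsg.Agent.Lib.helper20.P1

open Matrix

variable {F : Type*} [Field F]

/-- determinant of two vectors of the plane -/
def dt (u v : Fin 2 → F) : F := u 0 * v 1 - u 1 * v 0

theorem mk_eq_of_dt {u v : Fin 2 → F} (hu : u ≠ 0) (hv : v ≠ 0) (h : dt u v = 0) :
    Projectivization.mk F u hu = Projectivization.mk F v hv := by
  rw [Projectivization.mk_eq_mk_iff']
  unfold dt at h
  by_cases h0 : v 0 = 0
  · have h1 : v 1 ≠ 0 := by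
      intro h1; apply hv; ext i; fin_cases i <;> simp [h0, h1]
    have hu0 : u 0 = 0 := by
      rw [h0, mul_zero, sub_zero] at h
      exact (mul_eq_zero.mp h).resolve_right h1
    refine ⟨u 1 / v 1, ?_⟩
    ext i; fin_cases i
    · simp [h0, hu0]
    · simp only [Pi.smul_apply, smul_eq_mul]
      show u 1 / v 1 * v 1 = u 1
      field_simp
  · refine ⟨u 0 / v 0, ?_⟩
    ext i; fin_cases i
    · simp only [Pi.smul_apply, smul_eq_mul]
      show u 0 / v 0 * v 0 = u 0
      field_simp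
    · simp only [Pi.smul_apply, smul_eq_mul]
      show u 0 / v 0 * v 1 = u 1
      field_simp
      linear_combination h

theorem gl_smul (N : GL (Fin 2) F) (v : Fin 2 → F) :
    N • v = ![N.1 0 0 * v 0 + N.1 0 1 * v 1, N.1 1 0 * v 0 + N.1 1 1 * v 1] := by
  have h : N • v = N.1 *ᵥ v := rfl
  rw [h]
  ext i; fin_cases i <;> simp [Matrix.mulVec, dotProduct, Fin.sum_univ_two]

theorem sl_smul (N : Matrix.SpecialLinearGroup (Fin 2) F) (v : Fin 2 → F) :
    N • v = ![N.1 0 0 * v 0 + N.1 0 1 * v 1, N.1 1 0 * v 0 + N.1 1 1 * v 1] := by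
  have h : N • v = N.1 *ᵥ v := rfl
  rw [h]
  ext i; fin_cases i <;> simp [Matrix.mulVec, dotProduct, Fin.sum_univ_two]

theorem ne0_10 : (![1, 0] : Fin 2 → F) ≠ 0 := by
  intro h; have := congrFun h 0; simp at this

theorem ne0_01 : (![0, 1] : Fin 2 → F) ≠ 0 := by
  intro h; have := congrFun h 1; simp at this

theorem ne0_11 : (![1, 1] : Fin 2 → F) ≠ 0 := by
  intro h; have := congrFun h 0; simp at this

variable (F) in
/-- the three standard points of the projective line -/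
noncomputable def p0 : Projectivization F (Fin 2 → F) := Projectivization.mk F ![1, 0] ne0_10

variable (F) in
noncomputable def p1 : Projectivization F (Fin 2 → F) := Projectivization.mk F ![0, 1] ne0_01

variable (F) in
noncomputable def p2 : Projectivization F (Fin 2 → F) := Projectivization.mk F ![1, 1] ne0_11

theorem exists_gl (a b c : Projectivization F (Fin 2 → F)) (hab : a ≠ b) (hac : a ≠ c)
    (hbc : b ≠ c) :
    ∃ M : GL (Fin 2) F, (Matrix.ProjGenLinGroup.mk M : Matrix.ProjGenLinGroup (Fin 2) F) • p0 F = a ∧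
      (Matrix.ProjGenLinGroup.mk M : Matrix.ProjGenLinGroup (Fin 2) F) • p1 F = b ∧
      (Matrix.ProjGenLinGroup.mk M : Matrix.ProjGenLinGroup (Fin 2) F) • p2 F = c := by
  induction a using Projectivization.ind with | h u hu =>
  induction b using Projectivization.ind with | h v hv =>
  induction c using Projectivization.ind with | h w hw =>
  have d1 : dt u v ≠ 0 := fun h => hab (mk_eq_of_dt hu hv h)
  have d2 : dt u w ≠ 0 := fun h => hac (mk_eq_of_dt hu hw h)
  have d3 : dt v w ≠ 0 := fun h => hbc (mk_eq_of_dt hv hw h)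
  have d3' : dt w v ≠ 0 := by
    intro h; apply d3; unfold dt at h ⊢; linear_combination -h
  obtain ⟨α, hα⟩ : ∃ α : F, α = dt w v / dt u v := ⟨_, rfl⟩
  obtain ⟨β, hβ⟩ : ∃ β : F, β = dt u w / dt u v := ⟨_, rfl⟩
  have hα0 : α ≠ 0 := by rw [hα]; exact div_ne_zero d3' d1
  have hβ0 : β ≠ 0 := by rw [hβ]; exact div_ne_zero d2 d1
  have hw0 : α * u 0 + β * v 0 = w 0 := by
    rw [hα, hβ, div_mul_eq_mul_div, div_mul_eq_mul_div, ← add_div, div_eq_iff d1]
    unfold dt; ring
  have hw1 : α * u 1 + β * v 1 = w 1 := by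
    rw [hα, hβ, div_mul_eq_mul_div, div_mul_eq_mul_div, ← add_div, div_eq_iff d1]
    unfold dt; ring
  have hdet : (!![α * u 0, β * v 0; α * u 1, β * v 1] : Matrix (Fin 2) (Fin 2) F).det ≠ 0 := by
    rw [Matrix.det_fin_two_of]
    have : α * u 0 * (β * v 1) - β * v 0 * (α * u 1) = α * β * dt u v := by unfold dt; ring
    rw [this]
    exact mul_ne_zero (mul_ne_zero hα0 hβ0) d1
  refine ⟨Matrix.GeneralLinearGroup.mkOfDetNeZero _ hdet, ?_, ?_, ?_⟩
  · unfold p0
    rw [Projectivization.PGL.mk_smul_mk, Projectivization.mk_eq_mk_iff']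
    refine ⟨α, ?_⟩
    rw [gl_smul]
    ext i; fin_cases i <;> simp [Matrix.GeneralLinearGroup.mkOfDetNeZero]
  · unfold p1
    rw [Projectivization.PGL.mk_smul_mk, Projectivization.mk_eq_mk_iff']
    refine ⟨β, ?_⟩
    rw [gl_smul]
    ext i; fin_cases i <;> simp [Matrix.GeneralLinearGroup.mkOfDetNeZero]
  · unfold p2
    rw [Projectivization.PGL.mk_smul_mk, Projectivization.mk_eq_mk_iff']
    refine ⟨1, ?_⟩
    rw [gl_smul, one_smul]
    ext i; fin_cases i <;> simp [Matrix.GeneralLinearGroup.mkOfDetNeZero, hw0, hw1]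

theorem fix_three (N : GL (Fin 2) F)
    (h0 : (Matrix.ProjGenLinGroup.mk N : Matrix.ProjGenLinGroup (Fin 2) F) • p0 F = p0 F)
    (h1 : (Matrix.ProjGenLinGroup.mk N : Matrix.ProjGenLinGroup (Fin 2) F) • p1 F = p1 F)
    (h2 : (Matrix.ProjGenLinGroup.mk N : Matrix.ProjGenLinGroup (Fin 2) F) • p2 F = p2 F) :
    (Matrix.ProjGenLinGroup.mk N : Matrix.ProjGenLinGroup (Fin 2) F) = 1 := by
  unfold p0 at h0
  unfold p1 at h1
  unfold p2 at h2
  rw [Projectivization.PGL.mk_smul_mk, Projectivization.mk_eq_mk_iff', gl_smul] at h0 h1 h2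
  obtain ⟨a, ha⟩ := h0
  obtain ⟨b, hb⟩ := h1
  obtain ⟨c, hc⟩ := h2
  have ha0 := congrFun ha 0
  have ha1 := congrFun ha 1
  have hb0 := congrFun hb 0
  have hb1 := congrFun hb 1
  have hc0 := congrFun hc 0
  have hc1 := congrFun hc 1
  simp at ha0 ha1 hb0 hb1 hc0 hc1
  have hN : N.1.det ≠ 0 := Matrix.GeneralLinearGroup.det_ne_zero N
  rw [Matrix.det_fin_two, ← ha1, ← hb0, ← ha0, ← hb1] at hN
  have ha' : a ≠ 0 := by
    intro h; apply hN; rw [h]; ring
  rw [Matrix.ProjGenLinGroup.mk_eq_one, Matrix.GeneralLinearGroup.center_eq_range_scalar]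
  refine ⟨Units.mk0 a ha', ?_⟩
  apply Units.ext
  rw [Matrix.GeneralLinearGroup.coe_scalar]
  have hab : b = a := by
    rw [← ha0, ← hb0] at hc0
    rw [← ha1, ← hb1] at hc1
    have e1 : c = a := by rw [hc0, add_zero]
    have e2 : c = b := by rw [hc1, zero_add]
    rw [← e2, e1]
  ext i j
  fin_cases i <;> fin_cases j <;> simp [← ha0, ← ha1, ← hb0, ← hb1, hab]

theorem pgl_three (x y : Fin 3 ↪ Projectivization F (Fin 2 → F)) :
    ∃ g : Matrix.ProjGenLinGroup (Fin 2) F, g • x = y := by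
  have hx : ∀ i j : Fin 3, i ≠ j → x i ≠ x j := fun i j h e => h (x.injective e)
  have hy : ∀ i j : Fin 3, i ≠ j → y i ≠ y j := fun i j h e => h (y.injective e)
  obtain ⟨M, hM0, hM1, hM2⟩ := exists_gl (x 0) (x 1) (x 2) (hx 0 1 (by decide))
    (hx 0 2 (by decide)) (hx 1 2 (by decide))
  obtain ⟨M', hM0', hM1', hM2'⟩ := exists_gl (y 0) (y 1) (y 2) (hy 0 1 (by decide))
    (hy 0 2 (by decide)) (hy 1 2 (by decide))
  refine ⟨Matrix.ProjGenLinGroup.mk M' * (Matrix.ProjGenLinGroup.mk M)⁻¹, ?_⟩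
  ext i
  rw [Function.Embedding.smul_apply]
  fin_cases i
  · show (Matrix.ProjGenLinGroup.mk M' * (Matrix.ProjGenLinGroup.mk M)⁻¹) • x 0 = y 0
    rw [← hM0, mul_smul, inv_smul_smul, hM0']
  · show (Matrix.ProjGenLinGroup.mk M' * (Matrix.ProjGenLinGroup.mk M)⁻¹) • x 1 = y 1
    rw [← hM1, mul_smul, inv_smul_smul, hM1']
  · show (Matrix.ProjGenLinGroup.mk M' * (Matrix.ProjGenLinGroup.mk M)⁻¹) • x 2 = y 2
    rw [← hM2, mul_smul, inv_smul_smul, hM2']

theorem pgl_sharp (g : Matrix.ProjGenLinGroup (Fin 2) F) (a b c : Projectivization F (Fin 2 → F))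
    (hab : a ≠ b) (hac : a ≠ c) (hbc : b ≠ c) (ha : g • a = a) (hb : g • b = b)
    (hc : g • c = c) : g = 1 := by
  obtain ⟨M, hM0, hM1, hM2⟩ := exists_gl a b c hab hac hbc
  obtain ⟨N, hN⟩ := Matrix.ProjGenLinGroup.mk_surjective
    ((Matrix.ProjGenLinGroup.mk M)⁻¹ * g * Matrix.ProjGenLinGroup.mk M)
  have h := fix_three N (by rw [hN, mul_smul, mul_smul, hM0, ha, ← hM0, inv_smul_smul])
    (by rw [hN, mul_smul, mul_smul, hM1, hb, ← hM1, inv_smul_smul])
    (by rw [hN, mul_smul, mul_smul, hM2, hc, ← hM2, inv_smul_smul])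
  rw [hN] at h
  have e : g = Matrix.ProjGenLinGroup.mk M * ((Matrix.ProjGenLinGroup.mk M)⁻¹ * g *
      Matrix.ProjGenLinGroup.mk M) * (Matrix.ProjGenLinGroup.mk M)⁻¹ := by group
  rw [e, h]; group

theorem inj3 {α : Type*} {a b c : α} (hab : a ≠ b) (hac : a ≠ c) (hbc : b ≠ c) :
    Function.Injective ![a, b, c] := by
  intro i j h
  fin_cases i <;> fin_cases j <;> simp_all

end Cfsg.Agent.Lib.helper20.P1
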