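import Mathlib
import Cfsg.Prelude.Def_KGroupFacts

set_option autoImplicit false

namespace Cfsg.Agent.Lib.helper20

universe u v

open scoped commutatorElement

/-- A bimultiplicative map `G × G → A` into an additive commutative group. -/
structure Bimul (G : Type u) (A : Type v) [Group G] [AddCommGroup A] where
  toFun : G → G → A
  map_mul_left : ∀ g g' h, toFun (g * g') h = toFun g h + toFun g' h
  map_mul_right : ∀ g h h', toFun g (h * h') = toFun g h + toFun g h'

namespace Bimul

variable {G : Type u} {A : Type v} [Group G] [AddCommGroup A] (β : Bimul G A)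

theorem one_left (g : G) : β.toFun 1 g = 0 := by
  have h := β.map_mul_left 1 1 g
  rw [mul_one] at h
  exact left_eq_add.mp h

theorem one_right (g : G) : β.toFun g 1 = 0 := by
  have h := β.map_mul_right g 1 1
  rw [mul_one] at h
  exact left_eq_add.mp h

theorem inv_left (g h : G) : β.toFun g⁻¹ h = - β.toFun g h := by
  have h1 := β.map_mul_left g⁻¹ g h
  rw [inv_mul_cancel, β.one_left] at h1
  exact eq_neg_of_add_eq_zero_left h1.symm

theorem inv_right (g h : G) : β.toFun g h⁻¹ = - β.toFun g h := by
  have h1 := β.map_mul_right g h⁻¹ h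
  rw [inv_mul_cancel, β.one_right] at h1
  exact eq_neg_of_add_eq_zero_left h1.symm

end Bimul

/-- The central extension of `G` by `A` defined by the cocycle `β`. -/
structure CExt {G : Type u} {A : Type v} [Group G] [AddCommGroup A] (β : Bimul G A) :
    Type (max u v) where
  c : A
  g : G

namespace CExt

variable {G : Type u} {A : Type v} [Group G] [AddCommGroup A] (β : Bimul G A)

theorem ext' {x y : CExt β} (hc : x.c = y.c) (hg : x.g = y.g) : x = y := by
  cases x; cases y; simp only [mk.injEq]; exact ⟨hc, hg⟩

instance : Mul (CExt β) := ⟨fun x y => ⟨x.c + y.c + β.toFun x.g y.g, x.g * y.g⟩⟩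
instance : One (CExt β) := ⟨⟨0, 1⟩⟩
instance : Inv (CExt β) := ⟨fun x => ⟨-x.c + β.toFun x.g x.g, x.g⁻¹⟩⟩

theorem mul_c (x y : CExt β) : (x * y).c = x.c + y.c + β.toFun x.g y.g := rfl
theorem mul_g (x y : CExt β) : (x * y).g = x.g * y.g := rfl
theorem one_c : (1 : CExt β).c = 0 := rfl
theorem one_g : (1 : CExt β).g = 1 := rfl
theorem inv_c (x : CExt β) : (x⁻¹).c = -x.c + β.toFun x.g x.g := rfl
theorem inv_g (x : CExt β) : (x⁻¹).g = x.g⁻¹ := rfl

instance : Group (CExt β) where
  mul_assoc x y z := by
    apply ext'
    · simp only [mul_c, mul_g, β.map_mul_left, β.map_mul_right]; abel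
    · simp only [mul_g, mul_assoc]
  one_mul x := by
    apply ext'
    · simp only [mul_c, one_c, one_g, β.one_left]; abel
    · simp only [mul_g, one_g, one_mul]
  mul_one x := by
    apply ext'
    · simp only [mul_c, one_c, one_g, β.one_right]; abel
    · simp only [mul_g, one_g, mul_one]
  inv_mul_cancel x := by
    apply ext'
    · simp only [mul_c, inv_c, inv_g, one_c, β.inv_left]; abel
    · simp only [mul_g, inv_g, one_g, inv_mul_cancel]

instance [Finite G] [Finite A] : Finite (CExt β) :=
  Finite.of_injective (fun x : CExt β => (x.c, x.g)) (by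
    intro x y h
    simp only [Prod.mk.injEq] at h
    exact ext' β h.1 h.2)

/-- The projection onto `G`. -/
def proj : CExt β →* G where
  toFun x := x.g
  map_one' := rfl
  map_mul' _ _ := rfl

theorem proj_apply (x : CExt β) : proj β x = x.g := rfl

theorem proj_surjective : Function.Surjective (proj β) := fun g => ⟨⟨0, g⟩, rfl⟩

theorem mem_ker (x : CExt β) : x ∈ (proj β).ker ↔ x.g = 1 := Iff.rfl

theorem ker_le_center : (proj β).ker ≤ Subgroup.center (CExt β) := by
  intro x hx
  rw [mem_ker] at hx
  rw [Subgroup.mem_center_iff]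
  intro y
  apply ext'
  · simp only [mul_c, hx, β.one_left, β.one_right]; abel
  · simp only [mul_g, hx, one_mul, mul_one]

/-- The inclusion of `A`. -/
def incl : Multiplicative A →* CExt β where
  toFun a := ⟨Multiplicative.toAdd a, 1⟩
  map_one' := rfl
  map_mul' a b := by
    apply ext'
    · simp only [mul_c, β.one_left, toAdd_mul, add_zero]
    · simp only [mul_g, mul_one]

theorem incl_c (a : Multiplicative A) : (incl β a).c = Multiplicative.toAdd a := rfl
theorem incl_g (a : Multiplicative A) : (incl β a).g = 1 := rfl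

/-- The kernel is `A`. -/
def kerEquiv : (proj β).ker ≃* Multiplicative A where
  toFun x := Multiplicative.ofAdd x.1.c
  invFun a := ⟨incl β a, rfl⟩
  left_inv x := by
    apply Subtype.ext
    apply ext'
    · rfl
    · exact ((mem_ker β x.1).mp x.2).symm
  right_inv a := rfl
  map_mul' x y := by
    have hx := (mem_ker β x.1).mp x.2
    show Multiplicative.ofAdd ((x.1 * y.1).c) = Multiplicative.ofAdd x.1.c * Multiplicative.ofAdd y.1.c
    rw [mul_c, hx, β.one_left, add_zero, ofAdd_add]

theorem comm_mem (g h : G) (hgh : g * h = h * g) :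
    incl β (Multiplicative.ofAdd (β.toFun g h - β.toFun h g)) ∈ commutator (CExt β) := by
  have key : (⟨0, g⟩ : CExt β) * ⟨0, h⟩ =
      incl β (Multiplicative.ofAdd (β.toFun g h - β.toFun h g)) * ((⟨0, h⟩ : CExt β) * ⟨0, g⟩) := by
    apply ext'
    · simp only [mul_c, mul_g, incl_c, incl_g, β.one_left, toAdd_ofAdd]; abel
    · simp only [mul_g, incl_g, one_mul]; exact hgh
  have h2 : incl β (Multiplicative.ofAdd (β.toFun g h - β.toFun h g)) =
      ⁅(⟨0, g⟩ : CExt β), ⟨0, h⟩⁆ := by
    rw [commutatorElement_def, key]; group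
  rw [h2]
  exact Subgroup.commutator_mem_commutator (Subgroup.mem_top _) (Subgroup.mem_top _)

theorem isStem (h : ∀ a : Multiplicative A, incl β a ∈ commutator (CExt β)) :
    Cfsg.IsStemExtension (proj β) := by
  refine ⟨proj_surjective β, ker_le_center β, ?_⟩
  intro x hx
  have : x = incl β (Multiplicative.ofAdd x.c) := by
    apply ext'
    · rfl
    · exact hx
  rw [this]; exact h _

end CExt

end Cfsg.Agent.Lib.helper20
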