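import Mathlib
import Cfsg.Agent.Lib.helper20.Hopf2

set_option autoImplicit false

namespace Cfsg.Agent.Lib.helper20

universe u v w

open scoped commutatorElement

/-- If `π : H → Q` is surjective with central-in-`Γ` kernel and `y` has central commutators with
`H`, then `[x, y]` is killed by `|Q^ab|`. -/
theorem comm_pow_card_abelianization {Γ : Type*} {Q : Type*} [Group Γ] [Group Q]
    [Finite (Abelianization Q)] (H : Subgroup Γ) (π : H →* Q) (hπ : Function.Surjective π)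
    (hk : ∀ x : H, π x = 1 → (x : Γ) ∈ Subgroup.center Γ) (y : Γ)
    (hy : ∀ x ∈ H, ⁅x, y⁆ ∈ Subgroup.center Γ) {x : Γ} (hx : x ∈ H) :
    ⁅x, y⁆ ^ Nat.card (Abelianization Q) = 1 := by
  let h : H →* Γ := MonoidHom.mk' (fun x => ⁅(x : Γ), y⁆) (by
    intro a b
    have hb := Subgroup.mem_center_iff.mp (hy b b.2)
    show ⁅(a : Γ) * (b : Γ), y⁆ = ⁅(a : Γ), y⁆ * ⁅(b : Γ), y⁆
    have h1 : ⁅(a : Γ) * (b : Γ), y⁆ = (a : Γ) * ⁅(b : Γ), y⁆ * (a : Γ)⁻¹ * ⁅(a : Γ), y⁆ := by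
      simp only [commutatorElement_def]; group
    rw [h1, hb (a : Γ), mul_assoc ⁅(b : Γ), y⁆, mul_inv_cancel, mul_one, hb])
  have hh : ∀ x : H, h x = ⁅(x : Γ), y⁆ := fun _ => rfl
  have hker : ∀ x : H, π x = 1 → h x = 1 := by
    intro x hx1
    rw [hh, commutatorElement_eq_one_iff_commute]
    exact (Subgroup.mem_center_iff.mp (hk x hx1) y).symm
  have hcomm : commutator H ≤ h.ker := by
    rw [commutator_eq_closure, Subgroup.closure_le]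
    rintro _ ⟨a, b, rfl⟩
    show h ⁅a, b⁆ = 1
    rw [map_commutatorElement, commutatorElement_eq_one_iff_commute, hh, hh]
    exact (Subgroup.mem_center_iff.mp (hy a a.2) _).symm
  set n := Nat.card (Abelianization Q) with hn
  have h1 : (π ⟨x, hx⟩) ^ n ∈ commutator Q := by
    rw [← Abelianization.ker_of, MonoidHom.mem_ker, map_pow, hn]
    exact pow_card_eq_one'
  rw [← map_commutator_eq_of_surjective π hπ] at h1
  obtain ⟨c, hc, hcx⟩ := h1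
  have h2 : h (c⁻¹ * (⟨x, hx⟩ : H) ^ n) = 1 := by
    apply hker
    rw [map_mul, map_inv, map_pow, hcx]; simp
  have h3 : h c = 1 := hcomm hc
  have h4 : h ((⟨x, hx⟩ : H) ^ n) = 1 := by
    have : (⟨x, hx⟩ : H) ^ n = c * (c⁻¹ * (⟨x, hx⟩ : H) ^ n) := by group
    rw [this, map_mul, h2, h3, mul_one]
  rw [map_pow] at h4
  exact h4

section ProdUpper

variable {Q₁ : Type u} {Q₂ : Type v} [Group Q₁] [Group Q₂] {Γ : Type w} [Group Γ]
  (σ : Γ →* Q₁ × Q₂)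

/-- Preimage of `Q₁ × 1`. -/
def prodG1 : Subgroup Γ := ((MonoidHom.snd Q₁ Q₂).comp σ).ker

/-- Preimage of `1 × Q₂`. -/
def prodG2 : Subgroup Γ := ((MonoidHom.fst Q₁ Q₂).comp σ).ker

instance prodG1_normal : (prodG1 σ).Normal := by unfold prodG1; infer_instance

instance prodG2_normal : (prodG2 σ).Normal := by unfold prodG2; infer_instance

theorem mem_prodG1 {x : Γ} : x ∈ prodG1 σ ↔ (σ x).2 = 1 := Iff.rfl

theorem mem_prodG2 {x : Γ} : x ∈ prodG2 σ ↔ (σ x).1 = 1 := Iff.rfl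

theorem ker_le_prodG1 : σ.ker ≤ prodG1 σ := fun x hx => by
  rw [mem_prodG1, MonoidHom.mem_ker.mp hx]; rfl

theorem ker_le_prodG2 : σ.ker ≤ prodG2 σ := fun x hx => by
  rw [mem_prodG2, MonoidHom.mem_ker.mp hx]; rfl

/-- The projection `Γ₁ → Q₁`. -/
def prodPi1 : prodG1 σ →* Q₁ := ((MonoidHom.fst Q₁ Q₂).comp σ).comp (prodG1 σ).subtype

/-- The projection `Γ₂ → Q₂`. -/
def prodPi2 : prodG2 σ →* Q₂ := ((MonoidHom.snd Q₁ Q₂).comp σ).comp (prodG2 σ).subtype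

theorem prodPi1_surjective (hσ : Function.Surjective σ) : Function.Surjective (prodPi1 σ) := by
  intro q
  obtain ⟨x, hx⟩ := hσ (q, 1)
  exact ⟨⟨x, by rw [mem_prodG1, hx]⟩, by show (σ x).1 = q; rw [hx]⟩

theorem prodPi2_surjective (hσ : Function.Surjective σ) : Function.Surjective (prodPi2 σ) := by
  intro q
  obtain ⟨x, hx⟩ := hσ (1, q)
  exact ⟨⟨x, by rw [mem_prodG2, hx]⟩, by show (σ x).2 = q; rw [hx]⟩

theorem prodPi1_eq_one (x : prodG1 σ) : prodPi1 σ x = 1 ↔ (x : Γ) ∈ σ.ker := by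
  rw [MonoidHom.mem_ker]
  constructor
  · intro h; exact Prod.ext h x.2
  · intro h; show (σ x).1 = 1; rw [h]; rfl

theorem prodPi2_eq_one (x : prodG2 σ) : prodPi2 σ x = 1 ↔ (x : Γ) ∈ σ.ker := by
  rw [MonoidHom.mem_ker]
  constructor
  · intro h; exact Prod.ext x.2 h
  · intro h; show (σ x).2 = 1; rw [h]; rfl

theorem prodPi1_ker_le_center (hc : σ.ker ≤ Subgroup.center Γ) :
    (prodPi1 σ).ker ≤ Subgroup.center (prodG1 σ) := by
  intro x hx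
  rw [MonoidHom.mem_ker, prodPi1_eq_one] at hx
  rw [Subgroup.mem_center_iff]
  intro y
  apply Subtype.ext
  exact Subgroup.mem_center_iff.mp (hc hx) y

theorem prodPi2_ker_le_center (hc : σ.ker ≤ Subgroup.center Γ) :
    (prodPi2 σ).ker ≤ Subgroup.center (prodG2 σ) := by
  intro x hx
  rw [MonoidHom.mem_ker, prodPi2_eq_one] at hx
  rw [Subgroup.mem_center_iff]
  intro y
  apply Subtype.ext
  exact Subgroup.mem_center_iff.mp (hc hx) y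

theorem exists_mul_of_surjective (hσ : Function.Surjective σ) (γ : Γ) :
    ∃ x ∈ prodG1 σ, ∃ y ∈ prodG2 σ, γ = x * y := by
  obtain ⟨x, hx⟩ := hσ ((σ γ).1, 1)
  refine ⟨x, by rw [mem_prodG1, hx], x⁻¹ * γ, ?_, by group⟩
  rw [mem_prodG2, map_mul, map_inv, hx]; simp

theorem commutator_mem_ker {x y : Γ} (hx : x ∈ prodG1 σ) (hy : y ∈ prodG2 σ) :
    ⁅x, y⁆ ∈ σ.ker := by
  rw [MonoidHom.mem_ker, map_commutatorElement]
  rw [mem_prodG1] at hx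
  rw [mem_prodG2] at hy
  apply Prod.ext
  · simp [commutatorElement_def, hy]
  · simp [commutatorElement_def, hx]

theorem commutator_G1_G2_le_ker : ⁅prodG1 σ, prodG2 σ⁆ ≤ σ.ker := by
  rw [Subgroup.commutator_le]
  intro x hx y hy
  exact commutator_mem_ker σ hx hy

theorem commutator_le_sup (hσ : Function.Surjective σ) :
    commutator Γ ≤ ⁅prodG1 σ, prodG1 σ⁆ ⊔ ⁅prodG2 σ, prodG2 σ⁆ ⊔ ⁅prodG1 σ, prodG2 σ⁆ := by
  set N := ⁅prodG1 σ, prodG1 σ⁆ ⊔ ⁅prodG2 σ, prodG2 σ⁆ ⊔ ⁅prodG1 σ, prodG2 σ⁆ with hN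
  have hNn : N.Normal := by rw [hN]; infer_instance
  have h11 : ∀ a ∈ prodG1 σ, ∀ b ∈ prodG1 σ, ⁅a, b⁆ ∈ N := fun a ha b hb =>
    Subgroup.mem_sup_left (Subgroup.mem_sup_left (Subgroup.commutator_mem_commutator ha hb))
  have h22 : ∀ a ∈ prodG2 σ, ∀ b ∈ prodG2 σ, ⁅a, b⁆ ∈ N := fun a ha b hb =>
    Subgroup.mem_sup_left (Subgroup.mem_sup_right (Subgroup.commutator_mem_commutator ha hb))
  have h12 : ∀ a ∈ prodG1 σ, ∀ b ∈ prodG2 σ, ⁅a, b⁆ ∈ N := fun a ha b hb =>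
    Subgroup.mem_sup_right (Subgroup.commutator_mem_commutator ha hb)
  have h21 : ∀ a ∈ prodG2 σ, ∀ b ∈ prodG1 σ, ⁅a, b⁆ ∈ N := fun a ha b hb => by
    apply Subgroup.mem_sup_right
    rw [Subgroup.commutator_comm]
    exact Subgroup.commutator_mem_commutator ha hb
  have hstep : ∀ a : Γ, (∀ b ∈ prodG1 σ, ⁅a, b⁆ ∈ N) → (∀ b ∈ prodG2 σ, ⁅a, b⁆ ∈ N) →
      ∀ b : Γ, ⁅a, b⁆ ∈ N := by
    intro a ha1 ha2 b
    obtain ⟨b₁, hb₁, b₂, hb₂, rfl⟩ := exists_mul_of_surjective σ hσ b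
    have h1 : ⁅a, b₁ * b₂⁆ = ⁅a, b₁⁆ * (b₁ * ⁅a, b₂⁆ * b₁⁻¹) := by
      simp only [commutatorElement_def]; group
    rw [h1]
    exact N.mul_mem (ha1 b₁ hb₁) (hNn.conj_mem _ (ha2 b₂ hb₂) b₁)
  rw [commutator_eq_closure, Subgroup.closure_le]
  rintro _ ⟨a, b, rfl⟩
  obtain ⟨a₁, ha₁, a₂, ha₂, rfl⟩ := exists_mul_of_surjective σ hσ a
  have h1 : ⁅a₁ * a₂, b⁆ = a₁ * ⁅a₂, b⁆ * a₁⁻¹ * ⁅a₁, b⁆ := by
    simp only [commutatorElement_def]; group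
  show ⁅a₁ * a₂, b⁆ ∈ N
  rw [h1]
  exact N.mul_mem (hNn.conj_mem _ (hstep a₂ (h21 a₂ ha₂) (h22 a₂ ha₂) b) a₁)
    (hstep a₁ (h11 a₁ ha₁) (h12 a₁ ha₁) b)

theorem commutator_G1_le : ⁅prodG1 σ, prodG1 σ⁆ ≤ prodG1 σ := by
  rw [Subgroup.commutator_le]
  intro a ha b hb
  rw [commutatorElement_def]
  exact Subgroup.mul_mem _ (Subgroup.mul_mem _ (Subgroup.mul_mem _ ha hb) (Subgroup.inv_mem _ ha))
    (Subgroup.inv_mem _ hb)

theorem commutator_G2_le : ⁅prodG2 σ, prodG2 σ⁆ ≤ prodG2 σ := by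
  rw [Subgroup.commutator_le]
  intro a ha b hb
  rw [commutatorElement_def]
  exact Subgroup.mul_mem _ (Subgroup.mul_mem _ (Subgroup.mul_mem _ ha hb) (Subgroup.inv_mem _ ha))
    (Subgroup.inv_mem _ hb)

/-- Decomposition of the kernel of a stem extension of a direct product. -/
theorem ker_decomp (hσ : Cfsg.IsStemExtension σ) {z : Γ} (hz : z ∈ σ.ker) :
    ∃ d₁ ∈ ⁅prodG1 σ, prodG1 σ⁆, ∃ d₂ ∈ ⁅prodG2 σ, prodG2 σ⁆, ∃ e ∈ ⁅prodG1 σ, prodG2 σ⁆,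
      d₁ ∈ σ.ker ∧ d₂ ∈ σ.ker ∧ z = d₁ * d₂ * e := by
  have h1 := commutator_le_sup σ hσ.1 (hσ.2.2 hz)
  rw [Subgroup.mem_sup_of_normal_right] at h1
  obtain ⟨w, hw, e, he, hwe⟩ := h1
  rw [Subgroup.mem_sup_of_normal_right] at hw
  obtain ⟨d₁, hd₁, d₂, hd₂, rfl⟩ := hw
  have he' : e ∈ σ.ker := commutator_G1_G2_le_ker σ he
  have h2 : σ d₁ * σ d₂ = 1 := by
    have : σ (d₁ * d₂ * e) = 1 := by rw [hwe]; exact hz
    rw [map_mul, map_mul, MonoidHom.mem_ker.mp he', mul_one] at this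
    exact this
  have hd₁' : (σ d₁).2 = 1 := (mem_prodG1 σ).mp (commutator_G1_le σ hd₁)
  have hd₂' : (σ d₂).1 = 1 := (mem_prodG2 σ).mp (commutator_G2_le σ hd₂)
  have h3 : (σ d₁).1 = 1 := by
    have := congrArg Prod.fst h2
    simpa [hd₂'] using this
  have h4 : (σ d₂).2 = 1 := by
    have := congrArg Prod.snd h2
    simpa [hd₁'] using this
  exact ⟨d₁, hd₁, d₂, hd₂, e, he, Prod.ext h3 hd₁', Prod.ext hd₂' h4, hwe.symm⟩

theorem exists_hom_G1 [Finite Q₁] {A : Type*} [CommGroup A] (hA : Cfsg.HasSchurMultiplier Q₁ A)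
    (hσ : Function.Surjective σ) (hc : σ.ker ≤ Subgroup.center Γ) :
    ∃ f : A →* Γ, (∀ a, f a ∈ σ.ker) ∧
      ∀ d ∈ ⁅prodG1 σ, prodG1 σ⁆, d ∈ σ.ker → ∃ a, f a = d := by
  obtain ⟨f, hf⟩ := exists_surj_of_central hA (prodPi1 σ) (prodPi1_surjective σ hσ)
    (prodPi1_ker_le_center σ hc)
  refine ⟨(prodG1 σ).subtype.comp f, ?_, ?_⟩
  · intro a
    have h1 : f a ∈ Subgroup.map f ⊤ := ⟨a, Subgroup.mem_top a, rfl⟩
    rw [hf] at h1
    exact (prodPi1_eq_one σ (f a)).mp (MonoidHom.mem_ker.mp (Subgroup.mem_inf.mp h1).1)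
  · intro d hd hdk
    rw [← Subgroup.map_subtype_commutator] at hd
    obtain ⟨c, hc', rfl⟩ := hd
    have h1 : c ∈ (prodPi1 σ).ker ⊓ commutator (prodG1 σ) :=
      Subgroup.mem_inf.mpr ⟨MonoidHom.mem_ker.mpr ((prodPi1_eq_one σ c).mpr hdk), hc'⟩
    rw [← hf] at h1
    obtain ⟨a, -, ha⟩ := h1
    exact ⟨a, by show ((f a : prodG1 σ) : Γ) = _; rw [ha]; rfl⟩

theorem exists_hom_G2 [Finite Q₂] {B : Type*} [CommGroup B] (hB : Cfsg.HasSchurMultiplier Q₂ B)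
    (hσ : Function.Surjective σ) (hc : σ.ker ≤ Subgroup.center Γ) :
    ∃ f : B →* Γ, (∀ a, f a ∈ σ.ker) ∧
      ∀ d ∈ ⁅prodG2 σ, prodG2 σ⁆, d ∈ σ.ker → ∃ a, f a = d := by
  obtain ⟨f, hf⟩ := exists_surj_of_central hB (prodPi2 σ) (prodPi2_surjective σ hσ)
    (prodPi2_ker_le_center σ hc)
  refine ⟨(prodG2 σ).subtype.comp f, ?_, ?_⟩
  · intro a
    have h1 : f a ∈ Subgroup.map f ⊤ := ⟨a, Subgroup.mem_top a, rfl⟩
    rw [hf] at h1
    exact (prodPi2_eq_one σ (f a)).mp (MonoidHom.mem_ker.mp (Subgroup.mem_inf.mp h1).1)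
  · intro d hd hdk
    rw [← Subgroup.map_subtype_commutator] at hd
    obtain ⟨c, hc', rfl⟩ := hd
    have h1 : c ∈ (prodPi2 σ).ker ⊓ commutator (prodG2 σ) :=
      Subgroup.mem_inf.mpr ⟨MonoidHom.mem_ker.mpr ((prodPi2_eq_one σ c).mpr hdk), hc'⟩
    rw [← hf] at h1
    obtain ⟨a, -, ha⟩ := h1
    exact ⟨a, by show ((f a : prodG2 σ) : Γ) = _; rw [ha]; rfl⟩

theorem commutator_eq_one_of_coprime [Finite (Abelianization Q₁)] [Finite (Abelianization Q₂)]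
    (hσ : Function.Surjective σ) (hc : σ.ker ≤ Subgroup.center Γ)
    (hcop : Nat.Coprime (Nat.card (Abelianization Q₁)) (Nat.card (Abelianization Q₂)))
    {x y : Γ} (hx : x ∈ prodG1 σ) (hy : y ∈ prodG2 σ) : ⁅x, y⁆ = 1 := by
  have h1 : ⁅x, y⁆ ^ Nat.card (Abelianization Q₁) = 1 :=
    comm_pow_card_abelianization (prodG1 σ) (prodPi1 σ) (prodPi1_surjective σ hσ)
      (fun a ha => hc ((prodPi1_eq_one σ a).mp ha)) y
      (fun a ha => hc (commutator_mem_ker σ ha hy)) hx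
  have h2 : ⁅y, x⁆ ^ Nat.card (Abelianization Q₂) = 1 :=
    comm_pow_card_abelianization (prodG2 σ) (prodPi2 σ) (prodPi2_surjective σ hσ)
      (fun a ha => hc ((prodPi2_eq_one σ a).mp ha)) x
      (fun a ha => hc (by
        rw [← commutatorElement_inv]
        exact Subgroup.inv_mem _ (commutator_mem_ker σ hx ha))) hy
  have h3 : ⁅x, y⁆ ^ Nat.card (Abelianization Q₂) = 1 := by
    rw [← commutatorElement_inv, inv_pow, h2, inv_one]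
  have h4 := pow_gcd_eq_one.mpr ⟨h1, h3⟩
  rw [Nat.Coprime.gcd_eq_one hcop, pow_one] at h4
  exact h4

end ProdUpper

/-- The product of two stem extensions is a stem extension. -/
theorem isStem_prodMap {Γ₁ : Type*} {Γ₂ : Type*} {Q₁ : Type*} {Q₂ : Type*} [Group Γ₁] [Group Γ₂]
    [Group Q₁] [Group Q₂] (σ₁ : Γ₁ →* Q₁) (σ₂ : Γ₂ →* Q₂) (h₁ : Cfsg.IsStemExtension σ₁)
    (h₂ : Cfsg.IsStemExtension σ₂) : Cfsg.IsStemExtension (σ₁.prodMap σ₂) := by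
  refine ⟨?_, ?_, ?_⟩
  · rw [MonoidHom.coe_prodMap]
    exact Function.Surjective.prodMap h₁.1 h₂.1
  · rw [MonoidHom.ker_prodMap, Subgroup.center_prod]
    exact Subgroup.prod_mono h₁.2.1 h₂.2.1
  · rw [MonoidHom.ker_prodMap, commutator_def, ← Subgroup.top_prod_top,
      Subgroup.commutator_prod_prod, ← commutator_def, ← commutator_def]
    exact Subgroup.prod_mono h₁.2.2 h₂.2.2

theorem ker_prodMap_equiv {Γ₁ : Type*} {Γ₂ : Type*} {Q₁ : Type*} {Q₂ : Type*} [Group Γ₁]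
    [Group Γ₂] [Group Q₁] [Group Q₂] (σ₁ : Γ₁ →* Q₁) (σ₂ : Γ₂ →* Q₂) {A : Type*} {B : Type*}
    [Group A] [Group B] (e₁ : σ₁.ker ≃* A) (e₂ : σ₂.ker ≃* B) :
    Nonempty ((σ₁.prodMap σ₂).ker ≃* A × B) :=
  ⟨(MulEquiv.subgroupCongr (MonoidHom.ker_prodMap σ₁ σ₂)).trans
    ((Subgroup.prodEquiv _ _).trans (MulEquiv.prodCongr e₁ e₂))⟩

/-- Schur multiplier of a direct product with coprime abelianizations. -/
theorem hasSchurMultiplier_prod_coprime {Q₁ : Type u} {Q₂ : Type v} [Group Q₁] [Group Q₂]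
    [Finite Q₁] [Finite Q₂] {A B : Type w} [CommGroup A] [CommGroup B]
    (hA : Cfsg.HasSchurMultiplier Q₁ A) (hB : Cfsg.HasSchurMultiplier Q₂ B)
    (hcop : Nat.Coprime (Nat.card (Abelianization Q₁)) (Nat.card (Abelianization Q₂))) :
    Cfsg.HasSchurMultiplier (Q₁ × Q₂) (A × B) := by
  constructor
  · obtain ⟨⟨Γ₁, _, _, σ₁, hσ₁, ⟨e₁⟩⟩, -⟩ := hA
    obtain ⟨⟨Γ₂, _, _, σ₂, hσ₂, ⟨e₂⟩⟩, -⟩ := hB
    exact ⟨Γ₁ × Γ₂, inferInstance, inferInstance, σ₁.prodMap σ₂, isStem_prodMap σ₁ σ₂ hσ₁ hσ₂,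
      ker_prodMap_equiv σ₁ σ₂ e₁ e₂⟩
  · intro Γ _ _ σ hσ
    haveI : Finite (Abelianization Q₁) := inferInstanceAs (Finite (Q₁ ⧸ commutator Q₁))
    haveI : Finite (Abelianization Q₂) := inferInstanceAs (Finite (Q₂ ⧸ commutator Q₂))
    obtain ⟨f₁, hf₁, hf₁'⟩ := exists_hom_G1 σ hA hσ.1 hσ.2.1
    obtain ⟨f₂, hf₂, hf₂'⟩ := exists_hom_G2 σ hB hσ.1 hσ.2.1
    have hbot : ∀ e ∈ ⁅prodG1 σ, prodG2 σ⁆, e = 1 := by
      have hle : ⁅prodG1 σ, prodG2 σ⁆ ≤ ⊥ := by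
        rw [Subgroup.commutator_le]
        intro x hx y hy
        rw [Subgroup.mem_bot]
        exact commutator_eq_one_of_coprime σ hσ.1 hσ.2.1 hcop hx hy
      intro e he
      exact Subgroup.mem_bot.mp (hle he)
    refine ⟨MonoidHom.mk' (fun p : A × B =>
      (⟨f₁ p.1 * f₂ p.2, Subgroup.mul_mem _ (hf₁ _) (hf₂ _)⟩ : σ.ker)) ?_, ?_⟩
    · intro p q
      apply Subtype.ext
      show f₁ (p.1 * q.1) * f₂ (p.2 * q.2) = f₁ p.1 * f₂ p.2 * (f₁ q.1 * f₂ q.2)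
      rw [map_mul, map_mul]
      have := Subgroup.mem_center_iff.mp (hσ.2.1 (hf₂ p.2)) (f₁ q.1)
      calc f₁ p.1 * f₁ q.1 * (f₂ p.2 * f₂ q.2) = f₁ p.1 * (f₁ q.1 * f₂ p.2) * f₂ q.2 := by group
        _ = f₁ p.1 * (f₂ p.2 * f₁ q.1) * f₂ q.2 := by rw [this]
        _ = f₁ p.1 * f₂ p.2 * (f₁ q.1 * f₂ q.2) := by group
    · intro z
      obtain ⟨d₁, hd₁, d₂, hd₂, e, he, hk₁, hk₂, hz⟩ := ker_decomp σ hσ z.2
      obtain ⟨a, ha⟩ := hf₁' d₁ hd₁ hk₁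
      obtain ⟨b, hb⟩ := hf₂' d₂ hd₂ hk₂
      refine ⟨(a, b), Subtype.ext ?_⟩
      show f₁ a * f₂ b = z
      rw [ha, hb, hz, hbot e he, mul_one]

end Cfsg.Agent.Lib.helper20
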