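import Mathlib
import Cfsg.Agent.Lib.helper20.Hopf2

set_option autoImplicit false

namespace Cfsg.Agent.Lib.helper20

universe u v w

open scoped commutatorElement

/-- Extension of homomorphisms into a divisible commutative group. -/
theorem exists_extension_divisible {G : Type*} [Group G] (S : Subgroup G)
    (hS : S ⊓ commutator G = ⊥) {D : Type*} [CommGroup D]
    (hD : ∀ n : ℤ, n ≠ 0 → ∀ d : D, ∃ e : D, e ^ n = d) (χ : S →* D) :
    ∃ μ : G →* D, ∀ s : S, μ s = χ s := by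
  classical
  have hf : Function.Injective (Abelianization.of.comp S.subtype) := by
    rw [injective_iff_map_eq_one]
    intro s hs
    have h1 : (s : G) ∈ commutator G := by rw [← Abelianization.ker_of]; exact hs
    have h2 : (s : G) ∈ S ⊓ commutator G := ⟨s.2, h1⟩
    rw [hS, Subgroup.mem_bot] at h2
    exact Subtype.ext h2
  letI : CommGroup S := { (inferInstance : Group S) with
    mul_comm := fun a b => hf (by rw [map_mul, map_mul, mul_comm]) }
  haveI : DivisibleBy (Additive D) ℤ := divisibleByOfSMulRightSurj _ _ (fun {n} hn d => by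
    obtain ⟨e, he⟩ := hD n hn (Additive.toMul d)
    exact ⟨Additive.ofMul e, by
      show Additive.ofMul (e ^ n) = d
      rw [he]; rfl⟩)
  obtain ⟨h, hh⟩ := (Module.Baer.of_divisible (Additive D)).extension_property_addMonoidHom
    (MonoidHom.toAdditive (Abelianization.of.comp S.subtype)) hf (MonoidHom.toAdditive χ)
  refine ⟨MonoidHom.mk' (fun x => Additive.toMul (h (Additive.ofMul (Abelianization.of x)))) (by
    intro a b
    rw [map_mul, ofMul_mul, map_add, toMul_add]), ?_⟩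
  intro s
  have := congrArg (fun k => k (Additive.ofMul s)) hh
  exact congrArg Additive.toMul this

/-- `ℂˣ` is divisible. -/
theorem complex_units_divisible (n : ℤ) (hn : n ≠ 0) (u : ℂˣ) : ∃ v : ℂˣ, v ^ n = u := by
  have hpos : 0 < n.natAbs := Int.natAbs_pos.mpr hn
  obtain ⟨z, hz⟩ := IsAlgClosed.exists_pow_nat_eq (u : ℂ) hpos
  have hz0 : z ≠ 0 := by
    rintro rfl
    rw [zero_pow hpos.ne'] at hz
    exact u.ne_zero hz.symm
  have hv : (Units.mk0 z hz0) ^ n.natAbs = u := by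
    apply Units.ext
    rw [Units.val_pow_eq_pow_val]
    exact hz
  rcases Int.natAbs_eq n with h | h
  · refine ⟨Units.mk0 z hz0, ?_⟩
    rw [h, zpow_natCast]; exact hv
  · refine ⟨(Units.mk0 z hz0)⁻¹, ?_⟩
    rw [h, zpow_neg, inv_zpow, inv_inv, zpow_natCast]; exact hv

/-- The centre of `GL n ℂ` is divisible. -/
theorem center_GL_divisible (n : ℕ) (k : ℤ) (hk : k ≠ 0)
    (d : Subgroup.center (GL (Fin n) ℂ)) : ∃ e : Subgroup.center (GL (Fin n) ℂ), e ^ k = d := by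
  have hd : (d : GL (Fin n) ℂ) ∈ (Matrix.GeneralLinearGroup.scalar (Fin n)).range := by
    have h0 : (d : GL (Fin n) ℂ) ∈ Subgroup.center (GL (Fin n) ℂ) := d.2
    rw [← Matrix.GeneralLinearGroup.center_eq_range_scalar]
    exact h0
  obtain ⟨u, hu⟩ := hd
  obtain ⟨v, hv⟩ := complex_units_divisible k hk u
  refine ⟨⟨Matrix.GeneralLinearGroup.scalar (Fin n) v, ?_⟩, ?_⟩
  · rw [Matrix.GeneralLinearGroup.center_eq_range_scalar]; exact ⟨v, rfl⟩
  · apply Subtype.ext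
    show (Matrix.GeneralLinearGroup.scalar (Fin n) v) ^ k = (d : GL (Fin n) ℂ)
    rw [← map_zpow, hv, hu]

/-- A commutative group structure on the centre. -/
@[reducible] def centerCommGroup (G : Type*) [Group G] : CommGroup (Subgroup.center G) :=
  { (inferInstance : Group (Subgroup.center G)) with
    mul_comm := fun a b => Subtype.ext (Subgroup.mem_center_iff.mp b.2 (a : G)) }

/-- Descent of a homomorphism through a surjection. -/
theorem exists_lift_of_surjective {G H K : Type*} [Group G] [Group H] [Group K] (θ : G →* H)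
    (hθ : Function.Surjective θ) (ρ' : G →* K) (h : θ.ker ≤ ρ'.ker) :
    ∃ ρ : H →* K, ∀ x, ρ (θ x) = ρ' x :=
  ⟨θ.liftOfSurjective hθ ⟨ρ', h⟩, fun x =>
    MonoidHom.liftOfRightInverse_comp_apply θ _ (Function.rightInverse_surjInv hθ) ⟨ρ', h⟩ x⟩

/-- For a stem extension, the canonical map `F̄ → Γ` is surjective. -/
theorem theta_surjective {Q : Type u} [Group Q] {Γ : Type w} [Group Γ] (σ : Γ →* Q)
    (hσ : Cfsg.IsStemExtension σ) (θ : Fbar (canonHom Q) →* Γ)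
    (hθ : σ.comp θ = barHom (canonHom Q))
    (hmap : (hopfM (canonHom Q)).map θ = σ.ker ⊓ commutator Γ) : Function.Surjective θ := by
  have hθ' : ∀ x, σ (θ x) = barHom (canonHom Q) x := fun x => congrArg (fun f => f x) hθ
  have hmap' : (hopfM (canonHom Q)).map θ = σ.ker := by rw [hmap]; exact inf_eq_left.mpr hσ.2.2
  intro d
  obtain ⟨x, hx⟩ := barHom_surjective (canonHom Q) (canonHom_surjective Q) (σ d)
  have h1 : (θ x)⁻¹ * d ∈ (hopfM (canonHom Q)).map θ := by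
    rw [hmap', MonoidHom.mem_ker, map_mul, map_inv, hθ', hx]; simp
  obtain ⟨m, hm, hmd⟩ := h1
  refine ⟨x * m, ?_⟩
  rw [map_mul, hmd]; group

/-- For a Schur cover, the kernel of `F̄ → Γ` meets the commutator subgroup trivially. -/
theorem theta_ker_inf_commutator {Q : Type u} [Group Q] [Finite Q] {A : Type v} [CommGroup A]
    (hA : Cfsg.HasSchurMultiplier Q A) {Γ : Type w} [Group Γ] (σ : Γ →* Q)
    (hσ : Cfsg.IsStemExtension σ) (hk : Nonempty (σ.ker ≃* A)) (θ : Fbar (canonHom Q) →* Γ)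
    (hθ : σ.comp θ = barHom (canonHom Q))
    (hmap : (hopfM (canonHom Q)).map θ = σ.ker ⊓ commutator Γ) :
    θ.ker ⊓ commutator (Fbar (canonHom Q)) = ⊥ := by
  have hθ' : ∀ x, σ (θ x) = barHom (canonHom Q) x := fun x => congrArg (fun f => f x) hθ
  have hmap' : (hopfM (canonHom Q)).map θ = σ.ker := by rw [hmap]; exact inf_eq_left.mpr hσ.2.2
  obtain ⟨e⟩ := hk
  obtain ⟨e'⟩ := schurMultiplier_unique hA (hasSchurMultiplier_schurM Q)
  let θM : hopfM (canonHom Q) →* σ.ker :=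
    (θ.comp (hopfM (canonHom Q)).subtype).codRestrict σ.ker (fun m => by
      rw [← hmap']; exact Subgroup.mem_map_of_mem θ m.2)
  have hsurj : Function.Surjective θM := by
    intro z
    have hz : (z : Γ) ∈ (hopfM (canonHom Q)).map θ := by rw [hmap']; exact z.2
    obtain ⟨m, hm, hmz⟩ := hz
    exact ⟨⟨m, hm⟩, Subtype.ext hmz⟩
  have hcard : Nat.card (hopfM (canonHom Q)) = Nat.card σ.ker :=
    Nat.card_congr (e'.symm.trans e.symm).toEquiv
  have hbij := hsurj.bijective_of_nat_card_le hcard.le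
  rw [eq_bot_iff]
  intro x hx
  have hx1 : θ x = 1 := (Subgroup.mem_inf.mp hx).1
  have hxM : x ∈ hopfM (canonHom Q) := by
    refine Subgroup.mem_inf.mpr ⟨?_, (Subgroup.mem_inf.mp hx).2⟩
    rw [MonoidHom.mem_ker, ← hθ', hx1, map_one]
  have h2 : θM ⟨x, hxM⟩ = θM 1 := by
    apply Subtype.ext
    show θ x = ((θM 1 : σ.ker) : Γ)
    rw [map_one, hx1]; rfl
  have h3 := hbij.1 h2
  exact Subgroup.mem_bot.mpr (congrArg Subtype.val h3)

/-- Projective representations lift to Schur covers. -/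
theorem exists_projective_lift {Q : Type u} [Group Q] [Finite Q] {A : Type v} [CommGroup A]
    (hA : Cfsg.HasSchurMultiplier Q A) {Γ : Type w} [Group Γ] (σ : Γ →* Q)
    (hσ : Cfsg.IsStemExtension σ) (hk : Nonempty (σ.ker ≃* A)) (n : ℕ)
    (γ : Q →* (GL (Fin n) ℂ ⧸ Subgroup.center (GL (Fin n) ℂ))) :
    ∃ ρ : Γ →* GL (Fin n) ℂ,
      (QuotientGroup.mk' (Subgroup.center (GL (Fin n) ℂ))).comp ρ = γ.comp σ := by
  classical
  have hφ := canonHom_surjective Q
  obtain ⟨θ, hθ, hmap, -⟩ := exists_hom_of_central (canonHom Q) hφ σ hσ.1 hσ.2.1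
  have hθ' : ∀ x, σ (θ x) = barHom (canonHom Q) x := fun x => congrArg (fun f => f x) hθ
  have hθsurj := theta_surjective σ hσ θ hθ hmap
  have hS := theta_ker_inf_commutator hA σ hσ hk θ hθ hmap
  have hmk : Function.Surjective (QuotientGroup.mk' (Subgroup.center (GL (Fin n) ℂ))) :=
    QuotientGroup.mk'_surjective _
  obtain ⟨θP, hθP, -, -⟩ := exists_hom_of_central (canonHom Q) hφ
    (fiberFst γ (QuotientGroup.mk' (Subgroup.center (GL (Fin n) ℂ))))
    (fiberFst_surjective γ _ hmk)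
    (fiberFst_ker_le_center γ _ (by rw [QuotientGroup.ker_mk']))
  let ψ : Fbar (canonHom Q) →* GL (Fin n) ℂ :=
    (fiberSnd γ (QuotientGroup.mk' (Subgroup.center (GL (Fin n) ℂ)))).comp θP
  have hψ : ∀ x, QuotientGroup.mk' (Subgroup.center (GL (Fin n) ℂ)) (ψ x) =
      γ (barHom (canonHom Q) x) := by
    intro x
    have h1 := fiber_comm γ (QuotientGroup.mk' (Subgroup.center (GL (Fin n) ℂ))) (θP x)
    have h2 : fiberFst γ (QuotientGroup.mk' (Subgroup.center (GL (Fin n) ℂ))) (θP x) =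
        barHom (canonHom Q) x := congrArg (fun f => f x) hθP
    rw [← h2]
    exact h1.symm
  have hψS : ∀ s : θ.ker, (ψ.comp θ.ker.subtype) s ∈ Subgroup.center (GL (Fin n) ℂ) := by
    intro s
    have h1 : QuotientGroup.mk' (Subgroup.center (GL (Fin n) ℂ)) (ψ s) = 1 := by
      rw [hψ, ← hθ', MonoidHom.mem_ker.mp s.2, map_one, map_one]
    exact (QuotientGroup.eq_one_iff _).mp h1
  letI := centerCommGroup (GL (Fin n) ℂ)
  obtain ⟨μ, hμ⟩ := exists_extension_divisible θ.ker hS (center_GL_divisible n)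
    ((ψ.comp θ.ker.subtype).codRestrict (Subgroup.center (GL (Fin n) ℂ)) hψS)
  let ρ' : Fbar (canonHom Q) →* GL (Fin n) ℂ :=
    MonoidHom.mk' (fun x => ψ x * ((μ x : Subgroup.center (GL (Fin n) ℂ)) : GL (Fin n) ℂ)⁻¹) (by
      intro a b
      have hc := Subgroup.mem_center_iff.mp (Subgroup.inv_mem _ (μ a).2)
      rw [map_mul, map_mul]
      show ψ a * ψ b * (((μ a : Subgroup.center (GL (Fin n) ℂ)) : GL (Fin n) ℂ) *
        ((μ b : Subgroup.center (GL (Fin n) ℂ)) : GL (Fin n) ℂ))⁻¹ = _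
      rw [mul_inv_rev]
      calc ψ a * ψ b * (((μ b : Subgroup.center (GL (Fin n) ℂ)) : GL (Fin n) ℂ)⁻¹ *
            ((μ a : Subgroup.center (GL (Fin n) ℂ)) : GL (Fin n) ℂ)⁻¹)
          = ψ a * (ψ b * ((μ b : Subgroup.center (GL (Fin n) ℂ)) : GL (Fin n) ℂ)⁻¹ *
            ((μ a : Subgroup.center (GL (Fin n) ℂ)) : GL (Fin n) ℂ)⁻¹) := by group
        _ = ψ a * (((μ a : Subgroup.center (GL (Fin n) ℂ)) : GL (Fin n) ℂ)⁻¹ *
            (ψ b * ((μ b : Subgroup.center (GL (Fin n) ℂ)) : GL (Fin n) ℂ)⁻¹)) := by rw [hc]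
        _ = ψ a * ((μ a : Subgroup.center (GL (Fin n) ℂ)) : GL (Fin n) ℂ)⁻¹ *
            (ψ b * ((μ b : Subgroup.center (GL (Fin n) ℂ)) : GL (Fin n) ℂ)⁻¹) := by group)
  have hρ' : ∀ x, ρ' x = ψ x * ((μ x : Subgroup.center (GL (Fin n) ℂ)) : GL (Fin n) ℂ)⁻¹ :=
    fun _ => rfl
  have hker : θ.ker ≤ ρ'.ker := by
    intro s hs
    rw [MonoidHom.mem_ker, hρ']
    have := hμ ⟨s, hs⟩
    have h2 : ((μ s : Subgroup.center (GL (Fin n) ℂ)) : GL (Fin n) ℂ) = ψ s :=
      congrArg Subtype.val this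
    rw [h2, mul_inv_cancel]
  obtain ⟨ρ, hρ⟩ := exists_lift_of_surjective θ hθsurj ρ' hker
  refine ⟨ρ, MonoidHom.ext (fun g => ?_)⟩
  obtain ⟨x, rfl⟩ := hθsurj g
  show QuotientGroup.mk' (Subgroup.center (GL (Fin n) ℂ)) (ρ (θ x)) = γ (σ (θ x))
  rw [hρ, hρ', hθ', ← hψ, map_mul, map_inv]
  have h3 : QuotientGroup.mk' (Subgroup.center (GL (Fin n) ℂ))
      ((μ x : Subgroup.center (GL (Fin n) ℂ)) : GL (Fin n) ℂ) = 1 :=
    (QuotientGroup.eq_one_iff _).mpr (μ x).2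
  rw [h3, inv_one, mul_one]

/-- A monomial representation on which a central subgroup of finite index acts through a
prescribed character. -/
theorem exists_scalar_rep {Γ : Type*} [Group Γ] (Z : Subgroup Γ) (hZ : Z ≤ Subgroup.center Γ)
    [Finite (Γ ⧸ Z)] (lam : Z →* ℂˣ) :
    ∃ (n : ℕ) (ρ : Γ →* GL (Fin n) ℂ), 0 < n ∧
      ∀ c : Z, ρ c = Matrix.GeneralLinearGroup.scalar (Fin n) (lam c) := by
  classical
  obtain ⟨n, ⟨e⟩⟩ := Finite.exists_equiv_fin (Γ ⧸ Z)
  have hn : 0 < n := by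
    rcases Nat.eq_zero_or_pos n with h | h
    · subst h
      exact (e (QuotientGroup.mk 1)).elim0
    · exact h
  let s : Γ ⧸ Z → Γ := Quotient.out
  have hs : ∀ q : Γ ⧸ Z, (QuotientGroup.mk (s q) : Γ ⧸ Z) = q := fun q => Quotient.out_eq' q
  let lam' : Γ → ℂ := fun x => if h : x ∈ Z then ((lam ⟨x, h⟩ : ℂˣ) : ℂ) else 0
  have hlam_mul : ∀ x y : Γ, x ∈ Z → y ∈ Z → lam' (x * y) = lam' x * lam' y := by
    intro x y hx hy
    simp only [lam', dif_pos hx, dif_pos hy, dif_pos (Z.mul_mem hx hy)]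
    rw [← Units.val_mul, ← map_mul]
    rfl
  have hlam_one : lam' 1 = 1 := by
    simp only [lam', dif_pos Z.one_mem]
    have : (⟨1, Z.one_mem⟩ : Z) = 1 := rfl
    rw [this, map_one]; rfl
  have hlam_mem : ∀ c : Z, lam' (c : Γ) = ((lam c : ℂˣ) : ℂ) := by
    intro c
    simp only [lam', dif_pos c.2]
  have hz : ∀ (g : Γ) (q : Γ ⧸ Z), (s (g • q))⁻¹ * g * s q ∈ Z := by
    intro g q
    have h1 : (QuotientGroup.mk (s (g • q)) : Γ ⧸ Z) = QuotientGroup.mk (g * s q) := by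
      rw [hs]
      conv_lhs => rw [← hs q]
      rfl
    have h2 := QuotientGroup.eq.mp h1
    rwa [← mul_assoc] at h2
  let M : Γ → Matrix (Fin n) (Fin n) ℂ := fun g i j =>
    if e.symm i = g • e.symm j then lam' ((s (g • e.symm j))⁻¹ * g * s (e.symm j)) else 0
  have hM_one : M 1 = 1 := by
    ext i j
    simp only [M, one_smul, mul_one, inv_mul_cancel, hlam_one, Matrix.one_apply,
      EmbeddingLike.apply_eq_iff_eq]
  have hM_mul : ∀ g h : Γ, M (g * h) = M g * M h := by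
    intro g h
    ext i j
    rw [Matrix.mul_apply]
    rw [Finset.sum_eq_single (e (h • e.symm j))]
    · simp only [M, Equiv.symm_apply_apply, if_true, mul_smul]
      by_cases hc : e.symm i = g • h • e.symm j
      · rw [if_pos hc, if_pos hc, ← hlam_mul _ _ (hz g _) (hz h _)]
        congr 1
        group
      · rw [if_neg hc, if_neg hc, zero_mul]
    · intro k _ hk
      have : ¬ e.symm k = h • e.symm j := by
        intro h1
        apply hk
        rw [← h1, Equiv.apply_symm_apply]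
      simp only [M, if_neg this, mul_zero]
    · intro h1
      exact absurd (Finset.mem_univ _) h1
  let ρ₀ : Γ →* Matrix (Fin n) (Fin n) ℂ :=
    { toFun := M
      map_one' := hM_one
      map_mul' := hM_mul }
  refine ⟨n, ρ₀.toHomUnits, hn, ?_⟩
  intro c
  apply Units.ext
  rw [Matrix.GeneralLinearGroup.coe_scalar]
  show M (c : Γ) = _
  ext i j
  have hcq : ∀ q : Γ ⧸ Z, (c : Γ) • q = q := by
    intro q
    obtain ⟨x, rfl⟩ := QuotientGroup.mk_surjective q
    show (QuotientGroup.mk ((c : Γ) * x) : Γ ⧸ Z) = QuotientGroup.mk x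
    rw [QuotientGroup.eq]
    have h1 := Subgroup.mem_center_iff.mp (hZ c.2) x
    have h2 : ((c : Γ) * x)⁻¹ * x = (c : Γ)⁻¹ := by
      rw [← h1]; group
    rw [h2]
    exact Z.inv_mem c.2
  have hcs : ∀ x : Γ, x⁻¹ * (c : Γ) * x = (c : Γ) := by
    intro x
    have h1 := Subgroup.mem_center_iff.mp (hZ c.2) x
    rw [mul_assoc, ← h1, ← mul_assoc, inv_mul_cancel, one_mul]
  simp only [M, hcq, hcs, hlam_mem, Matrix.scalar_apply, Matrix.diagonal_apply,
    EmbeddingLike.apply_eq_iff_eq]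

/-- A homomorphism with central image kills commutators. -/
theorem commutator_le_ker_of_central {G H : Type*} [Group G] [Group H] (c : G →* H)
    (hc : ∀ g, c g ∈ Subgroup.center H) : commutator G ≤ c.ker := by
  rw [commutator_eq_closure, Subgroup.closure_le]
  rintro _ ⟨a, b, rfl⟩
  show c ⁅a, b⁆ = 1
  rw [map_commutatorElement, commutatorElement_eq_one_iff_commute]
  exact (Subgroup.mem_center_iff.mp (hc a) _).symm

/-- Two representations with the same projective image differ by a central-valued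
homomorphism. -/
theorem exists_central_hom_of_proj_eq {G : Type*} [Group G] {n : ℕ} (ρ₁ ρ₂ : G →* GL (Fin n) ℂ)
    (h : ∀ g, QuotientGroup.mk' (Subgroup.center (GL (Fin n) ℂ)) (ρ₁ g) =
      QuotientGroup.mk' (Subgroup.center (GL (Fin n) ℂ)) (ρ₂ g)) :
    ∃ c : G →* GL (Fin n) ℂ, (∀ g, c g ∈ Subgroup.center (GL (Fin n) ℂ)) ∧
      ∀ g, c g = (ρ₁ g)⁻¹ * ρ₂ g := by
  have hcen : ∀ g, (ρ₁ g)⁻¹ * ρ₂ g ∈ Subgroup.center (GL (Fin n) ℂ) := fun g =>
    QuotientGroup.eq.mp (h g)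
  refine ⟨MonoidHom.mk' (fun g => (ρ₁ g)⁻¹ * ρ₂ g) ?_, hcen, fun g => rfl⟩
  intro a b
  have hc := Subgroup.mem_center_iff.mp (hcen a)
  rw [map_mul, map_mul, mul_inv_rev]
  calc (ρ₁ b)⁻¹ * (ρ₁ a)⁻¹ * (ρ₂ a * ρ₂ b) = (ρ₁ b)⁻¹ * ((ρ₁ a)⁻¹ * ρ₂ a) * ρ₂ b := by group
    _ = (ρ₁ a)⁻¹ * ρ₂ a * (ρ₁ b)⁻¹ * ρ₂ b := by rw [hc]
    _ = (ρ₁ a)⁻¹ * ρ₂ a * ((ρ₁ b)⁻¹ * ρ₂ b) := by group

theorem scalar_mem_center (n : ℕ) (u : ℂˣ) :
    Matrix.GeneralLinearGroup.scalar (Fin n) u ∈ Subgroup.center (GL (Fin n) ℂ) := by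
  rw [Matrix.GeneralLinearGroup.center_eq_range_scalar]; exact ⟨u, rfl⟩

theorem scalar_injective {n : ℕ} (hn : 0 < n) :
    Function.Injective (Matrix.GeneralLinearGroup.scalar (Fin n) (R := ℂ)) := by
  haveI : Nonempty (Fin n) := ⟨⟨0, hn⟩⟩
  intro u v huv
  have h1 := congrArg (fun x : GL (Fin n) ℂ => (x : Matrix (Fin n) (Fin n) ℂ)) huv
  simp only [Matrix.GeneralLinearGroup.coe_scalar] at h1
  exact Units.ext (Matrix.scalar_inj.mp h1)

/-- If all projective representations of `Q` lift to `Q`, stem extensions of `Q` are trivial. -/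
theorem ker_eq_bot_of_lift {Q : Type u} [Group Q] {Γ : Type w} [Group Γ] [Finite Γ]
    (σ : Γ →* Q) (hσ : Cfsg.IsStemExtension σ)
    (hlift : ∀ (n : ℕ) (γ : Q →* (GL (Fin n) ℂ ⧸ Subgroup.center (GL (Fin n) ℂ))),
      ∃ ρ : Q →* GL (Fin n) ℂ, (QuotientGroup.mk' (Subgroup.center (GL (Fin n) ℂ))).comp ρ = γ) :
    σ.ker = ⊥ := by
  classical
  by_contra hne
  obtain ⟨z₀, hz₀, hz₀1⟩ : ∃ z ∈ σ.ker, z ≠ 1 := by
    by_contra hc
    simp only [not_exists, not_and, not_not] at hc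
    exact hne (eq_bot_iff.mpr (fun z hz => Subgroup.mem_bot.mpr (hc z hz)))
  letI : CommGroup σ.ker := { (inferInstance : Group σ.ker) with
    mul_comm := fun a b => Subtype.ext (Subgroup.mem_center_iff.mp (hσ.2.1 b.2) (a : Γ)) }
  haveI : NeZero (Monoid.exponent σ.ker) := ⟨Monoid.exponent_ne_zero_of_finite⟩
  obtain ⟨lam, hlam⟩ := CommGroup.exists_apply_ne_one_of_hasEnoughRootsOfUnity σ.ker ℂ
    (a := ⟨z₀, hz₀⟩) (fun h => hz₀1 (congrArg Subtype.val h))
  obtain ⟨n, ρ₀, hn, hρ₀⟩ := exists_scalar_rep σ.ker hσ.2.1 lam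
  have hker : σ.ker ≤ ((QuotientGroup.mk' (Subgroup.center (GL (Fin n) ℂ))).comp ρ₀).ker := by
    intro c hc
    rw [MonoidHom.mem_ker]
    show QuotientGroup.mk' (Subgroup.center (GL (Fin n) ℂ)) (ρ₀ c) = 1
    rw [QuotientGroup.mk'_apply, QuotientGroup.eq_one_iff, hρ₀ ⟨c, hc⟩]
    exact scalar_mem_center n _
  obtain ⟨γ, hγ⟩ := exists_lift_of_surjective σ hσ.1 _ hker
  obtain ⟨ρ, hρ⟩ := hlift n γ
  obtain ⟨c, hc1, hc2⟩ := exists_central_hom_of_proj_eq (ρ.comp σ) ρ₀ (by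
    intro g
    have h1 : QuotientGroup.mk' (Subgroup.center (GL (Fin n) ℂ)) (ρ (σ g)) = γ (σ g) :=
      congrArg (fun f => f (σ g)) hρ
    show QuotientGroup.mk' (Subgroup.center (GL (Fin n) ℂ)) (ρ (σ g)) = _
    rw [h1, hγ]
    rfl)
  have h3 : c z₀ = 1 := commutator_le_ker_of_central c hc1 (hσ.2.2 hz₀)
  rw [hc2] at h3
  have h4 : (ρ.comp σ) z₀ = 1 := by
    show ρ (σ z₀) = 1
    rw [MonoidHom.mem_ker.mp hz₀, map_one]
  rw [h4, inv_one, one_mul, hρ₀ ⟨z₀, hz₀⟩] at h3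
  have h5 : lam ⟨z₀, hz₀⟩ = 1 := by
    apply scalar_injective hn
    rw [h3, map_one]
  exact hlam h5

/-- Trivial multiplier from triviality of all stem extensions. -/
theorem hasCyclicSchurMultiplier_one_of_ker_eq_bot {Q : Type u} [Group Q] [Finite Q]
    (h : ∀ (Γ : Type u) [Group Γ] [Finite Γ] (σ : Γ →* Q), Cfsg.IsStemExtension σ → σ.ker = ⊥) :
    Cfsg.HasCyclicSchurMultiplier Q 1 := by
  constructor
  · refine ⟨Q, inferInstance, inferInstance, MonoidHom.id Q, ⟨Function.surjective_id, ?_, ?_⟩, ?_⟩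
    · rw [MonoidHom.ker_id]; exact bot_le
    · rw [MonoidHom.ker_id]; exact bot_le
    · haveI : Unique (MonoidHom.id Q).ker := by
        rw [MonoidHom.ker_id]; infer_instance
      exact ⟨MulEquiv.ofUnique⟩
  · intro Γ _ _ σ hσ
    have hk := h Γ σ hσ
    refine ⟨1, ?_⟩
    intro z
    refine ⟨1, ?_⟩
    apply Subtype.ext
    have hz : (z : Γ) ∈ (⊥ : Subgroup Γ) := hk ▸ z.2
    rw [Subgroup.mem_bot] at hz
    rw [hz]; rfl

/-- Trivial Schur multiplier iff projective representations lift. -/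
theorem trivial_multiplier_iff_lift {Q : Type u} [Group Q] [Finite Q] :
    Cfsg.HasCyclicSchurMultiplier Q 1 ↔
      ∀ (n : ℕ) (γ : Q →* (GL (Fin n) ℂ ⧸ Subgroup.center (GL (Fin n) ℂ))),
        ∃ ρ : Q →* GL (Fin n) ℂ,
          (QuotientGroup.mk' (Subgroup.center (GL (Fin n) ℂ))).comp ρ = γ := by
  constructor
  · intro hM n γ
    have hstem : Cfsg.IsStemExtension (MonoidHom.id Q) := by
      refine ⟨Function.surjective_id, ?_, ?_⟩
      · rw [MonoidHom.ker_id]; exact bot_le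
      · rw [MonoidHom.ker_id]; exact bot_le
    haveI : Unique (MonoidHom.id Q).ker := by
      rw [MonoidHom.ker_id]; infer_instance
    obtain ⟨ρ, hρ⟩ := exists_projective_lift hM (MonoidHom.id Q) hstem ⟨MulEquiv.ofUnique⟩ n γ
    exact ⟨ρ, hρ⟩
  · intro hlift
    apply hasCyclicSchurMultiplier_one_of_ker_eq_bot
    intro Γ _ _ σ hσ
    exact ker_eq_bot_of_lift σ hσ hlift

/-- Cardinality of the dual of a central finite subgroup. -/
theorem card_dual_of_central {Γ : Type*} [Group Γ] (Z : Subgroup Γ) [Finite Z]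
    (hZ : Z ≤ Subgroup.center Γ) : Nat.card (Z →* ℂˣ) = Nat.card Z := by
  letI : CommGroup Z := { (inferInstance : Group Z) with
    mul_comm := fun a b => Subtype.ext (Subgroup.mem_center_iff.mp (hZ b.2) (a : Γ)) }
  haveI : NeZero (Monoid.exponent Z) := ⟨Monoid.exponent_ne_zero_of_finite⟩
  exact CommGroup.card_monoidHom_of_hasEnoughRootsOfUnity Z ℂ

/-- If all projective representations of `Q` lift to the stem extension `Γ`, then the kernel of
`Γ → Q` is at least as large as that of any other finite stem extension. -/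
theorem card_ker_le_of_lift {Q : Type u} [Group Q] {Γ : Type v} [Group Γ] [Finite Γ]
    (σ : Γ →* Q) (hσ : Cfsg.IsStemExtension σ)
    (hlift : ∀ (n : ℕ) (γ : Q →* (GL (Fin n) ℂ ⧸ Subgroup.center (GL (Fin n) ℂ))),
      ∃ ρ : Γ →* GL (Fin n) ℂ,
        (QuotientGroup.mk' (Subgroup.center (GL (Fin n) ℂ))).comp ρ = γ.comp σ)
    {Γ₀ : Type w} [Group Γ₀] [Finite Γ₀] (σ₀ : Γ₀ →* Q) (hσ₀ : Cfsg.IsStemExtension σ₀) :
    Nat.card σ₀.ker ≤ Nat.card σ.ker := by
  classical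
  rw [← card_dual_of_central σ₀.ker hσ₀.2.1, ← card_dual_of_central σ.ker hσ.2.1]
  -- the relation between characters
  let R : (σ₀.ker →* ℂˣ) → (σ.ker →* ℂˣ) → Prop := fun lam₀ lam =>
    ∃ (n : ℕ) (_ : 0 < n) (ρ₀ : Γ₀ →* GL (Fin n) ℂ) (ρ : Γ →* GL (Fin n) ℂ),
      (∀ c : σ₀.ker, ρ₀ c = Matrix.GeneralLinearGroup.scalar (Fin n) (lam₀ c)) ∧
      (∀ c : σ.ker, ρ c = Matrix.GeneralLinearGroup.scalar (Fin n) (lam c)) ∧
      ∀ (x₀ : Γ₀) (x : Γ), σ₀ x₀ = σ x →
        QuotientGroup.mk' (Subgroup.center (GL (Fin n) ℂ)) (ρ₀ x₀) =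
          QuotientGroup.mk' (Subgroup.center (GL (Fin n) ℂ)) (ρ x)
  have hex : ∀ lam₀ : σ₀.ker →* ℂˣ, ∃ lam : σ.ker →* ℂˣ, R lam₀ lam := by
    intro lam₀
    obtain ⟨n, ρ₀, hn, hρ₀⟩ := exists_scalar_rep σ₀.ker hσ₀.2.1 lam₀
    have hker : σ₀.ker ≤
        ((QuotientGroup.mk' (Subgroup.center (GL (Fin n) ℂ))).comp ρ₀).ker := by
      intro c hc
      rw [MonoidHom.mem_ker]
      show QuotientGroup.mk' (Subgroup.center (GL (Fin n) ℂ)) (ρ₀ c) = 1
      rw [QuotientGroup.mk'_apply, QuotientGroup.eq_one_iff, hρ₀ ⟨c, hc⟩]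
      exact scalar_mem_center n _
    obtain ⟨γ, hγ⟩ := exists_lift_of_surjective σ₀ hσ₀.1 _ hker
    obtain ⟨ρ, hρ⟩ := hlift n γ
    have hρ' : ∀ x, QuotientGroup.mk' (Subgroup.center (GL (Fin n) ℂ)) (ρ x) = γ (σ x) :=
      fun x => congrArg (fun f => f x) hρ
    have hρZ : ∀ c : σ.ker, (ρ.comp σ.ker.subtype) c ∈
        (Matrix.GeneralLinearGroup.scalar (Fin n) (R := ℂ)).range := by
      intro c
      rw [← Matrix.GeneralLinearGroup.center_eq_range_scalar]
      have h1 : QuotientGroup.mk' (Subgroup.center (GL (Fin n) ℂ)) (ρ c) = 1 := by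
        rw [hρ', MonoidHom.mem_ker.mp c.2, map_one]
      exact (QuotientGroup.eq_one_iff _).mp h1
    let E := MonoidHom.ofInjective (scalar_injective (n := n) hn)
    refine ⟨E.symm.toMonoidHom.comp ((ρ.comp σ.ker.subtype).codRestrict _ hρZ),
      n, hn, ρ₀, ρ, hρ₀, ?_, ?_⟩
    · intro c
      have h1 : E (E.symm ((ρ.comp σ.ker.subtype).codRestrict _ hρZ c)) =
          (ρ.comp σ.ker.subtype).codRestrict _ hρZ c := E.apply_symm_apply _
      have h2 := congrArg Subtype.val h1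
      exact h2.symm
    · intro x₀ x hx
      rw [hρ', ← hx, hγ]
      rfl
  choose Φ hΦ using hex
  have hinj : Function.Injective Φ := by
    intro lam₁ lam₂ h12
    obtain ⟨n₁, hn₁, ρ₀₁, ρ₁, h1a, h1b, h1c⟩ := hΦ lam₁
    obtain ⟨n₂, hn₂, ρ₀₂, ρ₂, h2a, h2b, h2c⟩ := hΦ lam₂
    rw [← h12] at h2b
    obtain ⟨c₁, hc₁, hc₁'⟩ := exists_central_hom_of_proj_eq
      (ρ₁.comp (fiberSnd σ₀ σ)) (ρ₀₁.comp (fiberFst σ₀ σ)) (fun p =>
        (h1c _ _ (fiber_comm σ₀ σ p)).symm)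
    obtain ⟨c₂, hc₂, hc₂'⟩ := exists_central_hom_of_proj_eq
      (ρ₂.comp (fiberSnd σ₀ σ)) (ρ₀₂.comp (fiberFst σ₀ σ)) (fun p =>
        (h2c _ _ (fiber_comm σ₀ σ p)).symm)
    refine MonoidHom.ext (fun z₀ => ?_)
    have hmap := map_commutator_eq_of_surjective (fiberFst σ₀ σ)
      (fiberFst_surjective σ₀ σ hσ.1)
    have hz₀ : (z₀ : Γ₀) ∈ (commutator (fiberProd σ₀ σ)).map (fiberFst σ₀ σ) := by
      rw [hmap]; exact hσ₀.2.2 z₀.2
    obtain ⟨p, hp, hpz⟩ := hz₀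
    have hx : fiberSnd σ₀ σ p ∈ σ.ker := by
      rw [MonoidHom.mem_ker, ← fiber_comm, hpz]
      exact z₀.2
    have e1 : c₁ p = 1 := commutator_le_ker_of_central c₁ hc₁ hp
    have e2 : c₂ p = 1 := commutator_le_ker_of_central c₂ hc₂ hp
    rw [hc₁'] at e1
    rw [hc₂'] at e2
    have e1' : ρ₀₁ (z₀ : Γ₀) = ρ₁ (fiberSnd σ₀ σ p) := by
      have := inv_mul_eq_one.mp e1
      rw [← hpz]
      exact this.symm
    have e2' : ρ₀₂ (z₀ : Γ₀) = ρ₂ (fiberSnd σ₀ σ p) := by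
      have := inv_mul_eq_one.mp e2
      rw [← hpz]
      exact this.symm
    rw [h1a z₀, h1b ⟨_, hx⟩] at e1'
    rw [h2a z₀, h2b ⟨_, hx⟩] at e2'
    have f1 := scalar_injective hn₁ e1'
    have f2 := scalar_injective hn₂ e2'
    rw [f1, f2]
  haveI : Finite (σ.ker →* ℂˣ) := by
    apply Nat.finite_of_card_ne_zero
    rw [card_dual_of_central σ.ker hσ.2.1]
    exact Nat.card_pos.ne'
  exact Nat.card_le_card_of_injective Φ hinj

/-- A stem extension to which all projective representations lift is a Schur cover. -/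
theorem cover_of_lift {Q : Type u} [Group Q] [Finite Q] {Γ : Type v} [Group Γ] [Finite Γ]
    (σ : Γ →* Q) (hσ : Cfsg.IsStemExtension σ)
    (hlift : ∀ (n : ℕ) (γ : Q →* (GL (Fin n) ℂ ⧸ Subgroup.center (GL (Fin n) ℂ))),
      ∃ ρ : Γ →* GL (Fin n) ℂ,
        (QuotientGroup.mk' (Subgroup.center (GL (Fin n) ℂ))).comp ρ = γ.comp σ)
    {Δ : Type w} [Group Δ] (τ : Δ →* Q) (hτ : Cfsg.IsStemExtension τ) :
    ∃ π : σ.ker →* τ.ker, Function.Surjective π := by
  classical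
  have hφ := canonHom_surjective Q
  obtain ⟨⟨Γ₀, _, _, σ₀, hσ₀, ⟨e₀⟩⟩, -⟩ := hasSchurMultiplier_schurM Q
  have hcard := card_ker_le_of_lift σ hσ hlift σ₀ hσ₀
  obtain ⟨θ, hθ, hmap, -⟩ := exists_hom_of_central (canonHom Q) hφ σ hσ.1 hσ.2.1
  have hmap' : (hopfM (canonHom Q)).map θ = σ.ker := by rw [hmap]; exact inf_eq_left.mpr hσ.2.2
  obtain ⟨θ', hθ', hmap2, -⟩ := exists_hom_of_central (canonHom Q) hφ τ hτ.1 hτ.2.1
  have hmap2' : (hopfM (canonHom Q)).map θ' = τ.ker := by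
    rw [hmap2]; exact inf_eq_left.mpr hτ.2.2
  let θM : hopfM (canonHom Q) →* σ.ker :=
    (θ.comp (hopfM (canonHom Q)).subtype).codRestrict σ.ker (fun m => by
      rw [← hmap']; exact Subgroup.mem_map_of_mem θ m.2)
  have hsurj : Function.Surjective θM := by
    intro z
    have hz : (z : Γ) ∈ (hopfM (canonHom Q)).map θ := by rw [hmap']; exact z.2
    obtain ⟨m, hm, hmz⟩ := hz
    exact ⟨⟨m, hm⟩, Subtype.ext hmz⟩
  have hcardM : Nat.card (hopfM (canonHom Q)) ≤ Nat.card σ.ker := by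
    rw [← Nat.card_congr e₀.toEquiv]; exact hcard
  have hbij := hsurj.bijective_of_nat_card_le hcardM
  let E : hopfM (canonHom Q) ≃* σ.ker := MulEquiv.ofBijective θM hbij
  let θM' : hopfM (canonHom Q) →* τ.ker :=
    (θ'.comp (hopfM (canonHom Q)).subtype).codRestrict τ.ker (fun m => by
      rw [← hmap2']; exact Subgroup.mem_map_of_mem θ' m.2)
  have hsurj' : Function.Surjective θM' := by
    intro z
    have hz : (z : Δ) ∈ (hopfM (canonHom Q)).map θ' := by rw [hmap2']; exact z.2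
    obtain ⟨m, hm, hmz⟩ := hz
    exact ⟨⟨m, hm⟩, Subtype.ext hmz⟩
  exact ⟨θM'.comp E.symm.toMonoidHom, hsurj'.comp E.symm.surjective⟩

end Cfsg.Agent.Lib.helper20
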