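import Cfsg.Agent.Lib.helper20.Hopf

set_option autoImplicit false

namespace Cfsg.Agent.Lib.helper20

universe u v w

open scoped commutatorElement

/-- Generators of the kernel of a map from an `r`-generated abelian group to a free abelian
group of rank `n` whose image has finite index: at most `r - n` of them are needed. -/
theorem exists_gens_ker_add {V W : Type*} [AddCommGroup V] [AddCommGroup W] [Module.Free ℤ W]
    [Module.Finite ℤ W] {r : ℕ} (s : Fin r → V) (hs : Submodule.span ℤ (Set.range s) = ⊤)
    (f : V →ₗ[ℤ] W) (e : ℤ) (he : e ≠ 0) (hf : ∀ w : W, e • w ∈ LinearMap.range f) :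
    ∃ (k : ℕ) (t : Fin k → V), k + Module.finrank ℤ W ≤ r ∧
      Submodule.span ℤ (Set.range t) = LinearMap.ker f := by
  classical
  let p : (Fin r → ℤ) →ₗ[ℤ] V := Fintype.linearCombination ℤ s
  have hp : LinearMap.range p = ⊤ := by
    rw [Fintype.range_linearCombination]; exact hs
  let g : (Fin r → ℤ) →ₗ[ℤ] W := f ∘ₗ p
  have hg : LinearMap.range g = LinearMap.range f := LinearMap.range_comp_of_range_eq_top f hp
  have h1 := (LinearMap.ker g).finrank_quotient_add_finrank
  rw [LinearEquiv.finrank_eq g.quotKerEquivRange] at h1
  have h2 : Module.finrank ℤ (Fin r → ℤ) = r := by simp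
  rw [h2] at h1
  -- the range has full rank
  have h3 : Module.finrank ℤ W ≤ Module.finrank ℤ (LinearMap.range g) := by
    let m : W →ₗ[ℤ] LinearMap.range g :=
      LinearMap.codRestrict (LinearMap.range g) (e • LinearMap.id) (fun w => by
        rw [hg]; exact hf w)
    have hm : Function.Injective m := by
      intro a b hab
      have h4 : e • a = e • b := by
        have := congrArg Subtype.val hab
        simpa [m] using this
      exact smul_right_injective W he h4
    exact LinearMap.finrank_le_finrank_of_injective hm
  obtain ⟨k, ⟨b⟩⟩ := Submodule.nonempty_basis_of_pid (Pi.basisFun ℤ (Fin r)) (LinearMap.ker g)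
  have h5 : Module.finrank ℤ (LinearMap.ker g) = k := by
    rw [Module.finrank_eq_card_basis b]; simp
  refine ⟨k, fun j => p (b j), by omega, ?_⟩
  let h : LinearMap.ker g →ₗ[ℤ] V := p ∘ₗ (LinearMap.ker g).subtype
  have h6 : LinearMap.range h = LinearMap.ker f := by
    ext v
    constructor
    · rintro ⟨x, rfl⟩
      have := x.2
      rw [LinearMap.mem_ker] at this ⊢
      exact this
    · intro hv
      have hv' : v ∈ LinearMap.range p := by rw [hp]; trivial
      obtain ⟨x, rfl⟩ := hv'
      exact ⟨⟨x, hv⟩, rfl⟩
  rw [← h6, ← Submodule.map_top, ← b.span_eq, Submodule.map_span, ← Set.range_comp]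
  rfl

/-- Multiplicative version of `exists_gens_ker_add`. -/
theorem exists_finset_closure_ker {B : Type*} [CommGroup B] {n r : ℕ} (s : Fin r → B)
    (hs : Subgroup.closure (Set.range s) = ⊤) (f : B →* Abelianization (FreeGroup (Fin n)))
    (e : ℕ) (he : e ≠ 0) (hf : ∀ y, y ^ e ∈ f.range) :
    ∃ T : Finset B, T.card + n ≤ r ∧ Subgroup.closure (T : Set B) = f.ker := by
  classical
  let f' : Additive B →+ FreeAbelianGroup (Fin n) := MonoidHom.toAdditive f
  have hs' : Submodule.span ℤ (Set.range (fun i => Additive.ofMul (s i))) = ⊤ := by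
    rw [eq_top_iff]
    intro v _
    have hv : Additive.toMul v ∈ Subgroup.closure (Set.range s) := by rw [hs]; trivial
    have key : ∀ x : B, x ∈ Subgroup.closure (Set.range s) →
        Additive.ofMul x ∈ Submodule.span ℤ (Set.range (fun i => Additive.ofMul (s i))) := by
      intro x hx
      induction hx using Subgroup.closure_induction with
      | mem y hy =>
        obtain ⟨i, rfl⟩ := hy
        exact Submodule.subset_span ⟨i, rfl⟩
      | one => exact Submodule.zero_mem _
      | mul a b _ _ ha hb => exact Submodule.add_mem _ ha hb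
      | inv a _ ha => exact Submodule.neg_mem _ ha
    exact key _ hv
  have hW : Module.finrank ℤ (FreeAbelianGroup (Fin n)) = n := by
    rw [Module.finrank_eq_card_basis (FreeAbelianGroup.basis (Fin n))]; simp
  haveI : Module.Free ℤ (FreeAbelianGroup (Fin n)) :=
    Module.Free.of_basis (FreeAbelianGroup.basis (Fin n))
  haveI : Module.Finite ℤ (FreeAbelianGroup (Fin n)) :=
    Module.Finite.of_basis (FreeAbelianGroup.basis (Fin n))
  obtain ⟨k, t, hk, ht⟩ := exists_gens_ker_add (fun i => Additive.ofMul (s i)) hs'
    f'.toIntLinearMap (e : ℤ) (by exact_mod_cast he) (by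
      intro w
      obtain ⟨x, hx⟩ := hf (Additive.toMul w)
      refine ⟨Additive.ofMul x, ?_⟩
      change Additive.ofMul (f x) = _
      rw [hx]
      simp
      rfl)
  rw [hW] at hk
  refine ⟨Finset.univ.image (fun j => Additive.toMul (t j)), ?_, ?_⟩
  · have := Finset.card_image_le (s := (Finset.univ : Finset (Fin k)))
      (f := fun j => Additive.toMul (t j))
    simp at this
    omega
  · apply le_antisymm
    · rw [Subgroup.closure_le]
      intro x hx
      simp only [Finset.coe_image, Finset.coe_univ, Set.image_univ, Set.mem_range] at hx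
      obtain ⟨j, rfl⟩ := hx
      have h1 : t j ∈ LinearMap.ker f'.toIntLinearMap := by
        rw [← ht]; exact Submodule.subset_span ⟨j, rfl⟩
      rw [LinearMap.mem_ker] at h1
      exact h1
    · intro x hx
      have h1 : Additive.ofMul x ∈ LinearMap.ker f'.toIntLinearMap := by
        rw [LinearMap.mem_ker]; exact hx
      rw [← ht] at h1
      have key : ∀ v : Additive B, v ∈ Submodule.span ℤ (Set.range t) →
          Additive.toMul v ∈ Subgroup.closure
            ((Finset.univ.image (fun j => Additive.toMul (t j)) : Finset B) : Set B) := by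
        intro v hv
        induction hv using Submodule.span_induction with
        | mem y hy =>
          obtain ⟨j, rfl⟩ := hy
          exact Subgroup.subset_closure (by simp)
        | zero => exact Subgroup.one_mem _
        | add a b _ _ ha hb => exact Subgroup.mul_mem _ ha hb
        | smul c a _ ha => exact Subgroup.zpow_mem _ ha c
      exact key _ h1

end Cfsg.Agent.Lib.helper20
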