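import Mathlib
import Cfsg.Agent.Lib.helper20.HopfProd
import Cfsg.Agent.Lib.helper20.CExt

set_option autoImplicit false

namespace Cfsg.Agent.Lib.helper20

universe u v w

open scoped commutatorElement
open TensorProduct

theorem finite_tensor (M N : Type*) [AddCommGroup M] [AddCommGroup N] [Finite M] [Finite N] :
    Finite (M ⊗[ℤ] N) := by
  haveI : AddGroup.FG (M ⊗[ℤ] N) := by
    rw [AddGroup.fg_iff]
    refine ⟨Set.range (fun p : M × N => p.1 ⊗ₜ[ℤ] p.2), ?_, Set.finite_range _⟩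
    rw [eq_top_iff]
    have hall : ∀ x : M ⊗[ℤ] N,
        x ∈ AddSubgroup.closure (Set.range (fun p : M × N => p.1 ⊗ₜ[ℤ] p.2)) := by
      intro x
      induction x using TensorProduct.induction_on with
      | zero => exact AddSubgroup.zero_mem _
      | tmul m n => exact AddSubgroup.subset_closure ⟨(m, n), rfl⟩
      | add x y hx hy => exact AddSubgroup.add_mem _ hx hy
    intro x _
    exact hall x
  apply AddCommGroup.finite_of_fg_isAddTorsion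
  intro x
  rw [isOfFinAddOrder_iff_nsmul_eq_zero]
  refine ⟨Nat.card M, Nat.card_pos, ?_⟩
  induction x using TensorProduct.induction_on with
  | zero => simp
  | tmul m n =>
    have h : ∀ k : ℕ, k • (m ⊗ₜ[ℤ] n) = (k • m) ⊗ₜ[ℤ] n := by
      intro k
      induction k with
      | zero => simp
      | succ k ih => rw [succ_nsmul, succ_nsmul, ih, TensorProduct.add_tmul]
    rw [h, card_nsmul_eq_zero', TensorProduct.zero_tmul]
  | add x y hx hy => rw [smul_add, hx, hy, add_zero]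

/-- The tensor product of the abelianizations maps onto `[Γ₁, Γ₂]`. -/
theorem exists_tensor_hom {Q₁ : Type u} {Q₂ : Type v} [Group Q₁] [Group Q₂] {Γ : Type w} [Group Γ]
    (σ : Γ →* Q₁ × Q₂) (hσ : Function.Surjective σ) (hc : σ.ker ≤ Subgroup.center Γ) :
    ∃ f : Multiplicative ((Additive (Abelianization Q₁)) ⊗[ℤ] (Additive (Abelianization Q₂))) →* Γ,
      (∀ t, f t ∈ σ.ker) ∧ ∀ e ∈ ⁅prodG1 σ, prodG2 σ⁆, ∃ t, f t = e := by
  classical
  letI : CommGroup σ.ker := { (inferInstance : Group σ.ker) with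
    mul_comm := fun a b => Subtype.ext (Subgroup.mem_center_iff.mp (hc b.2) (a : Γ)) }
  let s₁ : Q₁ → Γ := fun q => Function.surjInv hσ (q, 1)
  let s₂ : Q₂ → Γ := fun q => Function.surjInv hσ (1, q)
  have hs₁ : ∀ q, σ (s₁ q) = (q, 1) := fun q => Function.surjInv_eq hσ _
  have hs₂ : ∀ q, σ (s₂ q) = (1, q) := fun q => Function.surjInv_eq hσ _
  have hs₁' : ∀ q, s₁ q ∈ prodG1 σ := fun q => by rw [mem_prodG1, hs₁]
  have hs₂' : ∀ q, s₂ q ∈ prodG2 σ := fun q => by rw [mem_prodG2, hs₂]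
  have hP : ∀ x ∈ prodG1 σ, ∀ y ∈ prodG2 σ, ⁅x, y⁆ = ⁅s₁ (σ x).1, s₂ (σ y).2⁆ := by
    intro x hx y hy
    have hk : (s₁ (σ x).1)⁻¹ * x ∈ Subgroup.center Γ := hc (by
      rw [MonoidHom.mem_ker, map_mul, map_inv, hs₁]
      apply Prod.ext
      · simp
      · simpa using (mem_prodG1 σ).mp hx)
    have hl : (s₂ (σ y).2)⁻¹ * y ∈ Subgroup.center Γ := hc (by
      rw [MonoidHom.mem_ker, map_mul, map_inv, hs₂]
      apply Prod.ext
      · simpa using (mem_prodG2 σ).mp hy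
      · simp)
    have hx' : x = s₁ (σ x).1 * ((s₁ (σ x).1)⁻¹ * x) := by group
    have hy' : y = s₂ (σ y).2 * ((s₂ (σ y).2)⁻¹ * y) := by group
    conv_lhs => rw [hx', hy']
    exact commutatorElement_mul_central hk hl
  let c₀ : Q₁ → Q₂ → σ.ker := fun q₁ q₂ =>
    ⟨⁅s₁ q₁, s₂ q₂⁆, commutator_mem_ker σ (hs₁' q₁) (hs₂' q₂)⟩
  have hc₀_left : ∀ q q' q₂, c₀ (q * q') q₂ = c₀ q q₂ * c₀ q' q₂ := by
    intro q q' q₂
    apply Subtype.ext
    show ⁅s₁ (q * q'), s₂ q₂⁆ = ⁅s₁ q, s₂ q₂⁆ * ⁅s₁ q', s₂ q₂⁆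
    have h1 : ⁅s₁ q * s₁ q', s₂ q₂⁆ = ⁅s₁ (q * q'), s₂ q₂⁆ := by
      rw [hP (s₁ q * s₁ q') (Subgroup.mul_mem _ (hs₁' q) (hs₁' q')) (s₂ q₂) (hs₂' q₂)]
      rw [map_mul, hs₁, hs₁, hs₂]
      rfl
    rw [← h1]
    have hcen := Subgroup.mem_center_iff.mp (hc (commutator_mem_ker σ (hs₁' q') (hs₂' q₂)))
    have h2 : ⁅s₁ q * s₁ q', s₂ q₂⁆ =
        s₁ q * ⁅s₁ q', s₂ q₂⁆ * (s₁ q)⁻¹ * ⁅s₁ q, s₂ q₂⁆ := by
      simp only [commutatorElement_def]; group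
    rw [h2, hcen (s₁ q), mul_assoc ⁅s₁ q', s₂ q₂⁆, mul_inv_cancel, mul_one, hcen]
  have hc₀_right : ∀ q q₂ q₂', c₀ q (q₂ * q₂') = c₀ q q₂ * c₀ q q₂' := by
    intro q q₂ q₂'
    apply Subtype.ext
    show ⁅s₁ q, s₂ (q₂ * q₂')⁆ = ⁅s₁ q, s₂ q₂⁆ * ⁅s₁ q, s₂ q₂'⁆
    have h1 : ⁅s₁ q, s₂ q₂ * s₂ q₂'⁆ = ⁅s₁ q, s₂ (q₂ * q₂')⁆ := by
      rw [hP (s₁ q) (hs₁' q) (s₂ q₂ * s₂ q₂') (Subgroup.mul_mem _ (hs₂' q₂) (hs₂' q₂'))]
      rw [map_mul, hs₁, hs₂, hs₂]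
      rfl
    rw [← h1]
    have hcen := Subgroup.mem_center_iff.mp (hc (commutator_mem_ker σ (hs₁' q) (hs₂' q₂')))
    have h2 : ⁅s₁ q, s₂ q₂ * s₂ q₂'⁆ =
        ⁅s₁ q, s₂ q₂⁆ * (s₂ q₂ * ⁅s₁ q, s₂ q₂'⁆ * (s₂ q₂)⁻¹) := by
      simp only [commutatorElement_def]; group
    rw [h2, hcen (s₂ q₂), mul_assoc ⁅s₁ q, s₂ q₂'⁆, mul_inv_cancel, mul_one]
  let c₁ : Q₂ → (Q₁ →* σ.ker) := fun q₂ =>
    MonoidHom.mk' (fun q => c₀ q q₂) (fun q q' => hc₀_left q q' q₂)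
  let c₂ : Abelianization Q₁ → (Q₂ →* σ.ker) := fun a =>
    MonoidHom.mk' (fun q₂ => Abelianization.lift (c₁ q₂) a) (by
      intro q₂ q₂'
      obtain ⟨q, rfl⟩ := QuotientGroup.mk_surjective a
      show Abelianization.lift (c₁ (q₂ * q₂')) (Abelianization.of q) =
        Abelianization.lift (c₁ q₂) (Abelianization.of q) *
          Abelianization.lift (c₁ q₂') (Abelianization.of q)
      rw [Abelianization.lift_apply_of, Abelianization.lift_apply_of,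
        Abelianization.lift_apply_of]
      exact hc₀_right q q₂ q₂')
  let G : Abelianization Q₁ → (Abelianization Q₂ →* σ.ker) := fun a => Abelianization.lift (c₂ a)
  have hG : ∀ q₁ q₂, G (Abelianization.of q₁) (Abelianization.of q₂) = c₀ q₁ q₂ := by
    intro q₁ q₂
    show Abelianization.lift (c₂ (Abelianization.of q₁)) (Abelianization.of q₂) = _
    rw [Abelianization.lift_apply_of]
    show Abelianization.lift (c₁ q₂) (Abelianization.of q₁) = _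
    rw [Abelianization.lift_apply_of]
    rfl
  have hG_mul : ∀ a a' b, G (a * a') b = G a b * G a' b := by
    intro a a' b
    obtain ⟨q₂, rfl⟩ := QuotientGroup.mk_surjective b
    show Abelianization.lift (c₂ (a * a')) (Abelianization.of q₂) =
      Abelianization.lift (c₂ a) (Abelianization.of q₂) *
        Abelianization.lift (c₂ a') (Abelianization.of q₂)
    rw [Abelianization.lift_apply_of, Abelianization.lift_apply_of,
      Abelianization.lift_apply_of]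
    show Abelianization.lift (c₁ q₂) (a * a') =
      Abelianization.lift (c₁ q₂) a * Abelianization.lift (c₁ q₂) a'
    rw [map_mul]
  let f : Additive (Abelianization Q₁) →+ Additive (Abelianization Q₂) →+ Additive σ.ker :=
    AddMonoidHom.mk' (fun a => MonoidHom.toAdditive (G (Additive.toMul a))) (by
      intro a a'
      refine AddMonoidHom.ext (fun b => ?_)
      exact congrArg Additive.ofMul (hG_mul (Additive.toMul a) (Additive.toMul a') (Additive.toMul b)))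
  let t := TensorProduct.liftAddHom (R := ℤ) f (by
    intro r m n
    rw [map_zsmul, map_zsmul, AddMonoidHom.smul_apply])
  refine ⟨σ.ker.subtype.comp (AddMonoidHom.toMultiplicativeLeft t), fun x => ?_, ?_⟩
  · exact (AddMonoidHom.toMultiplicativeLeft t x).2
  · intro e he
    have hle : ⁅prodG1 σ, prodG2 σ⁆ ≤
        (σ.ker.subtype.comp (AddMonoidHom.toMultiplicativeLeft t)).range := by
      rw [Subgroup.commutator_le]
      intro x hx y hy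
      refine ⟨Multiplicative.ofAdd ((Additive.ofMul (Abelianization.of (σ x).1)) ⊗ₜ[ℤ]
        (Additive.ofMul (Abelianization.of (σ y).2))), ?_⟩
      show ((Additive.toMul (t ((Additive.ofMul (Abelianization.of (σ x).1)) ⊗ₜ[ℤ]
        (Additive.ofMul (Abelianization.of (σ y).2)))) : σ.ker) : Γ) = ⁅x, y⁆
      rw [TensorProduct.liftAddHom_tmul, hP x hx y hy]
      exact congrArg Subtype.val (hG (σ x).1 (σ y).2)
    exact hle he

section ProdCover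

variable {Γ₁ : Type*} {Γ₂ : Type*} {Q₁ : Type*} {Q₂ : Type*} [Group Γ₁] [Group Γ₂] [Group Q₁]
  [Group Q₂] (σ₁ : Γ₁ →* Q₁) (σ₂ : Γ₂ →* Q₂)

/-- The cocycle defining the cover of a direct product. -/
def prodBimul :
    Bimul (Γ₁ × Γ₂) ((Additive (Abelianization Q₁)) ⊗[ℤ] (Additive (Abelianization Q₂))) where
  toFun g h := (Additive.ofMul (Abelianization.of (σ₁ g.1))) ⊗ₜ[ℤ]
    (Additive.ofMul (Abelianization.of (σ₂ h.2)))
  map_mul_left g g' h := by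
    show Additive.ofMul (Abelianization.of (σ₁ (g.1 * g'.1))) ⊗ₜ[ℤ] _ = _
    rw [map_mul, map_mul, ofMul_mul, TensorProduct.add_tmul]
  map_mul_right g h h' := by
    show _ ⊗ₜ[ℤ] Additive.ofMul (Abelianization.of (σ₂ (h.2 * h'.2))) = _
    rw [map_mul, map_mul, ofMul_mul, TensorProduct.tmul_add]

theorem prodBimul_apply (g h : Γ₁ × Γ₂) : (prodBimul σ₁ σ₂).toFun g h =
    (Additive.ofMul (Abelianization.of (σ₁ g.1))) ⊗ₜ[ℤ]
      (Additive.ofMul (Abelianization.of (σ₂ h.2))) := rfl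

theorem prodBimul_left_ker (g h : Γ₁ × Γ₂) (hg : g.1 ∈ σ₁.ker) :
    (prodBimul σ₁ σ₂).toFun g h = 0 := by
  rw [prodBimul_apply, MonoidHom.mem_ker.mp hg, map_one, ofMul_one, TensorProduct.zero_tmul]

theorem prodBimul_right_ker (g h : Γ₁ × Γ₂) (hh : h.2 ∈ σ₂.ker) :
    (prodBimul σ₁ σ₂).toFun g h = 0 := by
  rw [prodBimul_apply, MonoidHom.mem_ker.mp hh, map_one, ofMul_one, TensorProduct.tmul_zero]

/-- The covering map of the direct product. -/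
def prodCoverHom : CExt (prodBimul σ₁ σ₂) →* Q₁ × Q₂ :=
  (σ₁.prodMap σ₂).comp (CExt.proj (prodBimul σ₁ σ₂))

theorem mem_ker_prodCoverHom (x : CExt (prodBimul σ₁ σ₂)) :
    x ∈ (prodCoverHom σ₁ σ₂).ker ↔ x.g.1 ∈ σ₁.ker ∧ x.g.2 ∈ σ₂.ker := by
  rw [MonoidHom.mem_ker, MonoidHom.mem_ker, MonoidHom.mem_ker]
  show (σ₁ x.g.1, σ₂ x.g.2) = 1 ↔ _
  exact Prod.ext_iff

theorem incl_mem_commutator (hσ₁ : Function.Surjective σ₁) (hσ₂ : Function.Surjective σ₂)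
    (t : (Additive (Abelianization Q₁)) ⊗[ℤ] (Additive (Abelianization Q₂))) :
    CExt.incl (prodBimul σ₁ σ₂) (Multiplicative.ofAdd t) ∈
      commutator (CExt (prodBimul σ₁ σ₂)) := by
  induction t using TensorProduct.induction_on with
  | zero =>
    rw [ofAdd_zero, map_one]
    exact Subgroup.one_mem _
  | tmul a b =>
    obtain ⟨q₁, hq₁⟩ := QuotientGroup.mk_surjective (Additive.toMul a)
    obtain ⟨q₂, hq₂⟩ := QuotientGroup.mk_surjective (Additive.toMul b)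
    obtain ⟨x₁, rfl⟩ := hσ₁ q₁
    obtain ⟨y₂, rfl⟩ := hσ₂ q₂
    have h1 := CExt.comm_mem (prodBimul σ₁ σ₂) (x₁, (1 : Γ₂)) ((1 : Γ₁), y₂)
      (Prod.ext (by simp) (by simp))
    have h2 : (prodBimul σ₁ σ₂).toFun (x₁, (1 : Γ₂)) ((1 : Γ₁), y₂) = a ⊗ₜ[ℤ] b := by
      rw [prodBimul_apply]
      have ha : Additive.ofMul (Abelianization.of (σ₁ x₁)) = a := by
        show Additive.ofMul ((QuotientGroup.mk (σ₁ x₁) : Abelianization Q₁)) = a
        rw [hq₁]; rfl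
      have hb : Additive.ofMul (Abelianization.of (σ₂ y₂)) = b := by
        show Additive.ofMul ((QuotientGroup.mk (σ₂ y₂) : Abelianization Q₂)) = b
        rw [hq₂]; rfl
      rw [ha, hb]
    have h3 : (prodBimul σ₁ σ₂).toFun ((1 : Γ₁), y₂) (x₁, (1 : Γ₂)) = 0 :=
      prodBimul_left_ker σ₁ σ₂ _ _ (Subgroup.one_mem _)
    rw [h2, h3, sub_zero] at h1
    exact h1
  | add x y hx hy =>
    rw [ofAdd_add, map_mul]
    exact Subgroup.mul_mem _ hx hy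

theorem prodCover_isStem (hσ₁ : Cfsg.IsStemExtension σ₁) (hσ₂ : Cfsg.IsStemExtension σ₂) :
    Cfsg.IsStemExtension (prodCoverHom σ₁ σ₂) := by
  have hstem := isStem_prodMap σ₁ σ₂ hσ₁ hσ₂
  refine ⟨hstem.1.comp (CExt.proj_surjective _), ?_, ?_⟩
  · intro x hx
    rw [mem_ker_prodCoverHom] at hx
    rw [Subgroup.mem_center_iff]
    intro y
    apply CExt.ext'
    · rw [CExt.mul_c, CExt.mul_c, prodBimul_left_ker σ₁ σ₂ x.g y.g hx.1,
        prodBimul_right_ker σ₁ σ₂ y.g x.g hx.2]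
      abel
    · rw [CExt.mul_g, CExt.mul_g]
      apply Prod.ext
      · exact Subgroup.mem_center_iff.mp (hσ₁.2.1 hx.1) y.g.1
      · exact Subgroup.mem_center_iff.mp (hσ₂.2.1 hx.2) y.g.2
  · intro x hx
    have h1 : CExt.proj (prodBimul σ₁ σ₂) x ∈ (σ₁.prodMap σ₂).ker := hx
    have h2 := hstem.2.2 h1
    rw [← map_commutator_eq_of_surjective (CExt.proj (prodBimul σ₁ σ₂))
      (CExt.proj_surjective _)] at h2
    obtain ⟨e', he', hex⟩ := h2
    have h3 : x * e'⁻¹ ∈ (CExt.proj (prodBimul σ₁ σ₂)).ker := by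
      rw [MonoidHom.mem_ker, map_mul, map_inv, hex]; simp
    have h4 : x * e'⁻¹ = CExt.incl (prodBimul σ₁ σ₂) (Multiplicative.ofAdd (x * e'⁻¹).c) := by
      apply CExt.ext'
      · rfl
      · exact h3
    have h5 : x = (x * e'⁻¹) * e' := by group
    rw [h5, h4]
    exact Subgroup.mul_mem _ (incl_mem_commutator σ₁ σ₂ hσ₁.1 hσ₂.1 _) he'

theorem prodCover_kerEquiv {A : Type*} {B : Type*} [Group A] [Group B] (e₁ : σ₁.ker ≃* A)
    (e₂ : σ₂.ker ≃* B) :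
    Nonempty ((prodCoverHom σ₁ σ₂).ker ≃* A × B × Multiplicative
      ((Additive (Abelianization Q₁)) ⊗[ℤ] (Additive (Abelianization Q₂)))) := by
  refine ⟨{ toFun := fun k => (e₁ ⟨k.1.g.1, ((mem_ker_prodCoverHom σ₁ σ₂ k.1).mp k.2).1⟩,
                e₂ ⟨k.1.g.2, ((mem_ker_prodCoverHom σ₁ σ₂ k.1).mp k.2).2⟩,
                Multiplicative.ofAdd k.1.c)
            invFun := fun p => ⟨⟨Multiplicative.toAdd p.2.2,
                ((e₁.symm p.1 : Γ₁), (e₂.symm p.2.1 : Γ₂))⟩,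
                (mem_ker_prodCoverHom σ₁ σ₂ _).mpr ⟨(e₁.symm p.1).2, (e₂.symm p.2.1).2⟩⟩
            left_inv := ?_
            right_inv := ?_
            map_mul' := ?_ }⟩
  · intro k
    apply Subtype.ext
    apply CExt.ext'
    · simp
    · simp
  · intro p
    simp
  · intro k k'
    refine Prod.ext ?_ (Prod.ext ?_ ?_)
    · show e₁ ⟨(k.1 * k'.1).g.1, _⟩ = e₁ ⟨k.1.g.1, _⟩ * e₁ ⟨k'.1.g.1, _⟩
      rw [← map_mul]
      rfl
    · show e₂ ⟨(k.1 * k'.1).g.2, _⟩ = e₂ ⟨k.1.g.2, _⟩ * e₂ ⟨k'.1.g.2, _⟩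
      rw [← map_mul]
      rfl
    · show Multiplicative.ofAdd ((k.1 * k'.1).c) =
        Multiplicative.ofAdd k.1.c * Multiplicative.ofAdd k'.1.c
      rw [CExt.mul_c, prodBimul_left_ker σ₁ σ₂ k.1.g k'.1.g
        ((mem_ker_prodCoverHom σ₁ σ₂ k.1).mp k.2).1, add_zero, ofAdd_add]

end ProdCover

/-- **Schur**: the multiplier of a direct product. -/
theorem hasSchurMultiplier_prod {Q₁ : Type u} {Q₂ : Type v} [Group Q₁] [Group Q₂] [Finite Q₁]
    [Finite Q₂] {A B : Type w} [CommGroup A] [CommGroup B] (hA : Cfsg.HasSchurMultiplier Q₁ A)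
    (hB : Cfsg.HasSchurMultiplier Q₂ B) :
    Cfsg.HasSchurMultiplier (Q₁ × Q₂) (A × B × Multiplicative
      (TensorProduct ℤ (Additive (Abelianization Q₁)) (Additive (Abelianization Q₂)))) := by
  constructor
  · obtain ⟨⟨Γ₁, _, _, σ₁, hσ₁, ⟨e₁⟩⟩, -⟩ := hA
    obtain ⟨⟨Γ₂, _, _, σ₂, hσ₂, ⟨e₂⟩⟩, -⟩ := hB
    haveI : Finite (Abelianization Q₁) := inferInstanceAs (Finite (Q₁ ⧸ commutator Q₁))
    haveI : Finite (Abelianization Q₂) := inferInstanceAs (Finite (Q₂ ⧸ commutator Q₂))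
    haveI : Finite ((Additive (Abelianization Q₁)) ⊗[ℤ] (Additive (Abelianization Q₂))) :=
      finite_tensor _ _
    exact ⟨CExt (prodBimul σ₁ σ₂), inferInstance, inferInstance, prodCoverHom σ₁ σ₂,
      prodCover_isStem σ₁ σ₂ hσ₁ hσ₂, prodCover_kerEquiv σ₁ σ₂ e₁ e₂⟩
  · intro Γ _ _ σ hσ
    obtain ⟨f₁, hf₁, hf₁'⟩ := exists_hom_G1 σ hA hσ.1 hσ.2.1
    obtain ⟨f₂, hf₂, hf₂'⟩ := exists_hom_G2 σ hB hσ.1 hσ.2.1
    obtain ⟨f₃, hf₃, hf₃'⟩ := exists_tensor_hom σ hσ.1 hσ.2.1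
    refine ⟨MonoidHom.mk' (fun p : A × B × Multiplicative
        (TensorProduct ℤ (Additive (Abelianization Q₁)) (Additive (Abelianization Q₂))) =>
      (⟨f₁ p.1 * f₂ p.2.1 * f₃ p.2.2,
        Subgroup.mul_mem _ (Subgroup.mul_mem _ (hf₁ _) (hf₂ _)) (hf₃ _)⟩ : σ.ker)) ?_, ?_⟩
    · intro p q
      apply Subtype.ext
      show f₁ (p.1 * q.1) * f₂ (p.2.1 * q.2.1) * f₃ (p.2.2 * q.2.2) =
        f₁ p.1 * f₂ p.2.1 * f₃ p.2.2 * (f₁ q.1 * f₂ q.2.1 * f₃ q.2.2)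
      rw [map_mul, map_mul, map_mul]
      have h2 := Subgroup.mem_center_iff.mp (hσ.2.1 (hf₂ p.2.1)) (f₁ q.1)
      have h3 := Subgroup.mem_center_iff.mp (hσ.2.1 (hf₃ p.2.2))
      calc f₁ p.1 * f₁ q.1 * (f₂ p.2.1 * f₂ q.2.1) * (f₃ p.2.2 * f₃ q.2.2)
          = f₁ p.1 * (f₁ q.1 * f₂ p.2.1) * f₂ q.2.1 * f₃ p.2.2 * f₃ q.2.2 := by group
        _ = f₁ p.1 * (f₂ p.2.1 * f₁ q.1) * f₂ q.2.1 * f₃ p.2.2 * f₃ q.2.2 := by rw [h2]
        _ = f₁ p.1 * f₂ p.2.1 * ((f₁ q.1 * f₂ q.2.1) * f₃ p.2.2) * f₃ q.2.2 := by group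
        _ = f₁ p.1 * f₂ p.2.1 * (f₃ p.2.2 * (f₁ q.1 * f₂ q.2.1)) * f₃ q.2.2 := by rw [h3]
        _ = f₁ p.1 * f₂ p.2.1 * f₃ p.2.2 * (f₁ q.1 * f₂ q.2.1 * f₃ q.2.2) := by group
    · intro z
      obtain ⟨d₁, hd₁, d₂, hd₂, e, he, hk₁, hk₂, hz⟩ := ker_decomp σ hσ z.2
      obtain ⟨a, ha⟩ := hf₁' d₁ hd₁ hk₁
      obtain ⟨b, hb⟩ := hf₂' d₂ hd₂ hk₂
      obtain ⟨t, ht⟩ := hf₃' e he
      refine ⟨(a, b, t), Subtype.ext ?_⟩
      show f₁ a * f₂ b * f₃ t = z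
      rw [ha, hb, ht, hz]

end Cfsg.Agent.Lib.helper20
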