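import Mathlib
import Cfsg.Prelude.Def_LocalEven
import Cfsg.Agent.Lib.helper15.DkMat
import Cfsg.Agent.Lib.helper2.SLCard

set_option autoImplicit false

namespace Cfsg.Agent.Lib.helper20.NatSL2

open Cfsg.Agent.Lib.helper15
open scoped Pointwise

/-- Coordinates for a natural `SL₂(F)`-module `V` for `L`, normalised so that the `p`-subgroup `T`
of `L` corresponds to the upper unitriangular group. -/
structure NatData {G : Type*} [Group G] (F : Type*) [Field F] (V L T : Subgroup G) where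
  r : G → Dk.SL2 F
  φ : G → Fin 2 → F
  r_mul : ∀ l ∈ L, ∀ l' ∈ L, r (l * l') = r l * r l'
  r_inj : ∀ l ∈ L, ∀ l' ∈ L, r l = r l' → l = l'
  r_surj : ∀ A : Dk.SL2 F, ∃ l ∈ L, r l = A
  φ_mul : ∀ v ∈ V, ∀ w ∈ V, φ (v * w) = φ v + φ w
  φ_inj : ∀ v ∈ V, ∀ w ∈ V, φ v = φ w → v = w
  φ_surj : ∀ x : Fin 2 → F, ∃ v ∈ V, φ v = x
  conj : ∀ l ∈ L, ∀ v ∈ V, l * v * l⁻¹ ∈ V ∧
    φ (l * v * l⁻¹) = (r l : Matrix (Fin 2) (Fin 2) F).mulVec (φ v)
  mem_T : ∀ t, t ∈ T ↔ t ∈ L ∧ r t ∈ Dk.UU F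

theorem charP_of_card {F : Type*} [Field F] [Fintype F] {p n : ℕ} [Fact p.Prime]
    (hF : Fintype.card F = p ^ n) : CharP F p := by
  obtain ⟨p', hp'⟩ := CharP.exists F
  obtain ⟨m, hprime, hm⟩ := FiniteField.card F p'
  have : p = p' := by
    have h1 : p ∣ p' ^ (m : ℕ) := by
      rw [← hm, hF]
      have hn : n ≠ 0 := by
        rintro rfl
        rw [pow_zero] at hF
        have := Fintype.one_lt_card (α := F)
        omega
      exact dvd_pow_self p hn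
    exact (Nat.prime_dvd_prime_iff_eq (Fact.out) hprime).mp
      ((Fact.out : p.Prime).dvd_of_dvd_pow h1)
  subst this
  exact hp'

theorem card_UU {F : Type*} [Field F] [Fintype F] : Nat.card (Dk.UU F) = Fintype.card F := by
  have hb : Function.Bijective (fun s : F => (⟨Dk.uu s, Dk.uu_mem_UU s⟩ : Dk.UU F)) := by
    constructor
    · intro s t h
      exact Dk.uu_injective (congrArg Subtype.val h)
    · rintro ⟨g, hg⟩
      exact ⟨Dk.eb g, Subtype.ext (Dk.mem_UU_iff.mp hg).symm⟩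
  rw [← Nat.card_congr (Equiv.ofBijective _ hb), Nat.card_eq_fintype_card]

theorem card_SL2 {F : Type*} [Field F] [Fintype F] :
    Nat.card (Dk.SL2 F) = Fintype.card F * (Fintype.card F ^ 2 - 1) := by
  have h := Cfsg.Agent.Lib.helper2.SLCard.card_SL F 2 (by norm_num)
  rw [Fin.prod_univ_two] at h
  simp only [Fin.val_zero, Fin.val_one, pow_zero, pow_one] at h
  have hq : 2 ≤ Fintype.card F := Fintype.one_lt_card
  obtain ⟨q, hq'⟩ : ∃ q, Fintype.card F = q + 2 := ⟨Fintype.card F - 2, by omega⟩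
  rw [hq'] at h ⊢
  have e1 : q + 2 - 1 = q + 1 := by omega
  have e2 : (q + 2) ^ 2 - (q + 2) = (q + 2) * (q + 1) := by
    have : (q + 2) ^ 2 = (q + 2) * (q + 1) + (q + 2) := by ring
    omega
  rw [e1, e2] at h
  have h3 : (q + 1) * Nat.card (Matrix.SpecialLinearGroup (Fin 2) F) =
      (q + 1) * ((q + 2) * ((q + 2) ^ 2 - 1)) := by
    rw [h]; ring
  exact Nat.eq_of_mul_eq_mul_left (by omega) h3

theorem exists_data {G : Type*} [Group G] [Finite G] {p : ℕ} [Fact p.Prime] {F : Type*} [Field F]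
    [Fintype F] (n : ℕ) (hF : Fintype.card F = p ^ n) (V L : Subgroup G)
    (hnat : Cfsg.IsNaturalSL2Module F V L)
    (hf : L ⊓ Subgroup.centralizer (V : Set G) = ⊥) (S : Sylow p ↥L) (T : Subgroup G)
    (hT : T = ((S : Subgroup ↥L).map L.subtype)) : Nonempty (NatData F V L T) := by
  classical
  obtain ⟨-, ρ, ψ, hsurj, hker, hact⟩ := hnat
  have hp : p.Prime := Fact.out
  have hinj : Function.Injective ρ := by
    rw [← MonoidHom.ker_eq_bot_iff, hker, Subgroup.subgroupOf_eq_bot, disjoint_iff, inf_comm]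
    exact hf
  have hn : n ≠ 0 := by
    rintro rfl
    rw [pow_zero] at hF
    have := Fintype.one_lt_card (α := F)
    omega
  have hcardΓ : Nat.card (Dk.SL2 F) = p ^ n * ((p ^ n) ^ 2 - 1) := by
    rw [card_SL2, hF]
  have hndvd : ¬ p ∣ (p ^ n) ^ 2 - 1 := by
    intro h
    have h1 : p ∣ (p ^ n) ^ 2 := by
      rw [← pow_mul]
      exact dvd_pow_self p (by positivity)
    have h2 : p ∣ (p ^ n) ^ 2 - ((p ^ n) ^ 2 - 1) := Nat.dvd_sub h1 h
    have h3 : (p ^ n) ^ 2 - ((p ^ n) ^ 2 - 1) = 1 := by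
      have : 1 ≤ (p ^ n) ^ 2 := Nat.one_le_pow _ _ (Nat.one_le_pow _ _ hp.pos)
      omega
    rw [h3] at h2
    exact hp.one_lt.ne' (Nat.dvd_one.mp h2)
  have hcardL : Nat.card L = p ^ n * ((p ^ n) ^ 2 - 1) := by
    rw [← hcardΓ]
    exact Nat.card_congr (Equiv.ofBijective ρ ⟨hinj, hsurj⟩)
  have hcardS : Nat.card (S : Subgroup L) = p ^ n :=
    Cfsg.Agent.Lib.helper2.SLCard.sylow_card_of_eq S n _ hndvd hcardL
  have hcardS' : Nat.card ((S : Subgroup L).map ρ) = p ^ n := by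
    rw [← hcardS]
    exact (Nat.card_congr ((S : Subgroup L).equivMapOfInjective ρ hinj).toEquiv).symm
  have hcardP : ∀ Q : Sylow p (Dk.SL2 F), Nat.card (Q : Subgroup (Dk.SL2 F)) = p ^ n :=
    fun Q => Cfsg.Agent.Lib.helper2.SLCard.sylow_card_of_eq Q n _ hndvd hcardΓ
  obtain ⟨P₁, hP₁⟩ := (IsPGroup.of_card hcardS').exists_le_sylow
  have hSP : (S : Subgroup L).map ρ = (P₁ : Subgroup (Dk.SL2 F)) :=
    Subgroup.eq_of_le_of_card_ge hP₁ (by rw [hcardP, hcardS'])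
  have hcardU : Nat.card (Dk.UU F) = p ^ n := by rw [card_UU, hF]
  obtain ⟨P₂, hP₂⟩ := (IsPGroup.of_card hcardU).exists_le_sylow
  have hUP : Dk.UU F = (P₂ : Subgroup (Dk.SL2 F)) :=
    Subgroup.eq_of_le_of_card_ge hP₂ (by rw [hcardP, hcardU])
  obtain ⟨x, hx⟩ := MulAction.exists_smul_eq (Dk.SL2 F) P₁ P₂
  have hPg : Dk.UU F = MulAut.conj x • ((S : Subgroup L).map ρ) := by
    rw [hUP, hSP, ← Sylow.coe_subgroup_smul, hx]
  have hmem : ∀ y : Dk.SL2 F, y ∈ Dk.UU F ↔ x⁻¹ * y * x ∈ (S : Subgroup L).map ρ := by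
    intro y
    rw [hPg, Subgroup.mem_pointwise_smul_iff_inv_smul_mem]
    simp [MulAut.smul_def]
  have hxx : ∀ u : Fin 2 → F, (x⁻¹ : Dk.SL2 F).1.mulVec ((x : Dk.SL2 F).1.mulVec u) = u := by
    intro u
    rw [Matrix.mulVec_mulVec, ← Matrix.SpecialLinearGroup.coe_mul, inv_mul_cancel,
      Matrix.SpecialLinearGroup.coe_one, Matrix.one_mulVec]
  have hxx' : ∀ u : Fin 2 → F, (x : Dk.SL2 F).1.mulVec ((x⁻¹ : Dk.SL2 F).1.mulVec u) = u := by
    intro u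
    rw [Matrix.mulVec_mulVec, ← Matrix.SpecialLinearGroup.coe_mul, mul_inv_cancel,
      Matrix.SpecialLinearGroup.coe_one, Matrix.one_mulVec]
  refine ⟨{
    r := fun g => if h : g ∈ L then x * ρ ⟨g, h⟩ * x⁻¹ else 1
    φ := fun g => if h : g ∈ V then (x : Dk.SL2 F).1.mulVec (ψ (Additive.ofMul ⟨g, h⟩)) else 0
    r_mul := ?_
    r_inj := ?_
    r_surj := ?_
    φ_mul := ?_
    φ_inj := ?_
    φ_surj := ?_
    conj := ?_
    mem_T := ?_ }⟩
  · intro l hl l' hl'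
    rw [dif_pos hl, dif_pos hl', dif_pos (L.mul_mem hl hl')]
    have : (⟨l * l', L.mul_mem hl hl'⟩ : L) = ⟨l, hl⟩ * ⟨l', hl'⟩ := rfl
    rw [this, map_mul]
    group
  · intro l hl l' hl' h
    rw [dif_pos hl, dif_pos hl'] at h
    have h1 : ρ ⟨l, hl⟩ = ρ ⟨l', hl'⟩ := by
      have := congrArg (fun y => x⁻¹ * y * x) h
      simpa [mul_assoc] using this
    exact congrArg Subtype.val (hinj h1)
  · intro A
    obtain ⟨l, hl⟩ := hsurj (x⁻¹ * A * x)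
    refine ⟨l.1, l.2, ?_⟩
    rw [dif_pos l.2]
    have : (⟨l.1, l.2⟩ : L) = l := rfl
    rw [this, hl]
    group
  · intro v hv w hw
    rw [dif_pos hv, dif_pos hw, dif_pos (V.mul_mem hv hw)]
    have : Additive.ofMul (⟨v * w, V.mul_mem hv hw⟩ : V) =
        Additive.ofMul (⟨v, hv⟩ : V) + Additive.ofMul (⟨w, hw⟩ : V) := rfl
    rw [this, map_add, Matrix.mulVec_add]
  · intro v hv w hw h
    rw [dif_pos hv, dif_pos hw] at h
    have h1 := congrArg (fun u => (x⁻¹ : Dk.SL2 F).1.mulVec u) h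
    simp only [hxx] at h1
    have h2 := ψ.injective h1
    have h3 : (⟨v, hv⟩ : V) = ⟨w, hw⟩ := h2
    exact congrArg Subtype.val h3
  · intro y
    refine ⟨((Additive.toMul (ψ.symm ((x⁻¹ : Dk.SL2 F).1.mulVec y)) : V) : G), Subtype.property _, ?_⟩
    rw [dif_pos (Subtype.property _)]
    have : Additive.ofMul (⟨((Additive.toMul (ψ.symm ((x⁻¹ : Dk.SL2 F).1.mulVec y)) : V) : G),
        Subtype.property _⟩ : V) = ψ.symm ((x⁻¹ : Dk.SL2 F).1.mulVec y) := rfl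
    rw [this, AddEquiv.apply_symm_apply, hxx']
  · intro l hl v hv
    obtain ⟨w, hw1, hw2⟩ := hact ⟨l, hl⟩ ⟨v, hv⟩
    have hmemV : l * v * l⁻¹ ∈ V := by
      have : (w : G) = l * v * l⁻¹ := hw1
      rw [← this]; exact w.2
    refine ⟨hmemV, ?_⟩
    rw [dif_pos hmemV, dif_pos hv, dif_pos hl]
    have hw3 : (⟨l * v * l⁻¹, hmemV⟩ : V) = w := Subtype.ext hw1.symm
    rw [hw3, hw2, Matrix.mulVec_mulVec, Matrix.mulVec_mulVec,
      ← Matrix.SpecialLinearGroup.coe_mul, ← Matrix.SpecialLinearGroup.coe_mul,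
      show x * ρ ⟨l, hl⟩ * x⁻¹ * x = x * ρ ⟨l, hl⟩ by group]
  · intro t
    rw [hT]
    constructor
    · rintro ⟨l, hl, rfl⟩
      refine ⟨l.2, ?_⟩
      show (if h : (l : G) ∈ L then x * ρ ⟨(l : G), h⟩ * x⁻¹ else 1) ∈ Dk.UU F
      rw [dif_pos l.2, hmem]
      refine ⟨l, hl, ?_⟩
      have : (⟨(l : G), l.2⟩ : L) = l := rfl
      rw [this]
      group
    · rintro ⟨htL, ht⟩
      rw [dif_pos htL, hmem] at ht
      obtain ⟨l, hl, hl2⟩ := ht
      have h1 : ρ l = ρ ⟨t, htL⟩ := by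
        rw [hl2]; group
      have h2 := hinj h1
      exact ⟨l, hl, by rw [h2]; rfl⟩

namespace NatData

variable {G : Type*} [Group G] {F : Type*} [Field F] {V L T : Subgroup G} (D : NatData F V L T)

theorem r_one : D.r 1 = 1 := by
  have h := D.r_mul 1 L.one_mem 1 L.one_mem
  rw [mul_one] at h
  have h2 : D.r 1 * D.r 1 = D.r 1 * 1 := by rw [mul_one]; exact h.symm
  exact mul_left_cancel h2

theorem r_inv {l : G} (hl : l ∈ L) : D.r l⁻¹ = (D.r l)⁻¹ := by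
  have h := D.r_mul l hl l⁻¹ (L.inv_mem hl)
  rw [mul_inv_cancel, D.r_one] at h
  exact eq_inv_of_mul_eq_one_right h.symm

theorem φ_one : D.φ 1 = 0 := by
  have h := D.φ_mul 1 V.one_mem 1 V.one_mem
  rw [mul_one] at h
  have h2 := congrArg (fun y => y - D.φ 1) h
  simpa using h2.symm

theorem φ_inv {v : G} (hv : v ∈ V) : D.φ v⁻¹ = - D.φ v := by
  have h := D.φ_mul v hv v⁻¹ (V.inv_mem hv)
  rw [mul_inv_cancel, D.φ_one] at h
  exact eq_neg_of_add_eq_zero_right h.symm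

theorem T_le (D : NatData F V L T) : T ≤ L := fun t ht => ((D.mem_T t).mp ht).1

theorem exists_T (s : F) : ∃ t ∈ T, D.r t = Dk.uu s := by
  obtain ⟨l, hl, h⟩ := D.r_surj (Dk.uu s)
  exact ⟨l, (D.mem_T l).mpr ⟨hl, h ▸ Dk.uu_mem_UU s⟩, h⟩

theorem r_of_T {t : G} (ht : t ∈ T) : D.r t = Dk.uu (Dk.eb (D.r t)) :=
  Dk.mem_UU_iff.mp ((D.mem_T t).mp ht).2

theorem conj0 {l v : G} (hl : l ∈ L) (hv : v ∈ V) :
    D.φ (l * v * l⁻¹) 0 = Dk.ea (D.r l) * D.φ v 0 + Dk.eb (D.r l) * D.φ v 1 := by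
  rw [(D.conj l hl v hv).2]
  simp [Matrix.mulVec, dotProduct, Fin.sum_univ_two, Dk.ea, Dk.eb]

theorem conj1 {l v : G} (hl : l ∈ L) (hv : v ∈ V) :
    D.φ (l * v * l⁻¹) 1 = Dk.ec (D.r l) * D.φ v 0 + Dk.ed (D.r l) * D.φ v 1 := by
  rw [(D.conj l hl v hv).2]
  simp [Matrix.mulVec, dotProduct, Fin.sum_univ_two, Dk.ec, Dk.ed]

theorem φ_ext {v w : G} (hv : v ∈ V) (hw : w ∈ V) (h0 : D.φ v 0 = D.φ w 0)
    (h1 : D.φ v 1 = D.φ w 1) : v = w := by
  apply D.φ_inj v hv w hw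
  funext i
  fin_cases i
  · exact h0
  · exact h1

theorem exists_V (a b : F) : ∃ v ∈ V, D.φ v 0 = a ∧ D.φ v 1 = b := by
  obtain ⟨v, hv, h⟩ := D.φ_surj ![a, b]
  exact ⟨v, hv, by rw [h]; rfl, by rw [h]; rfl⟩

theorem comm_iff {l v : G} (hl : l ∈ L) (hv : v ∈ V) :
    l * v = v * l ↔ D.φ (l * v * l⁻¹) = D.φ v := by
  constructor
  · intro h; rw [h, mul_inv_cancel_right]
  · intro h
    have h2 := D.φ_inj _ (D.conj l hl v hv).1 v hv h
    exact mul_inv_eq_iff_eq_mul.mp h2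

theorem V_comm (D : NatData F V L T) {v w : G} (hv : v ∈ V) (hw : w ∈ V) : v * w = w * v := by
  apply D.φ_inj _ (V.mul_mem hv hw) _ (V.mul_mem hw hv)
  rw [D.φ_mul v hv w hw, D.φ_mul w hw v hv, add_comm]

/-- The fixed line of `T`. -/
def W : Subgroup G where
  carrier := {v | v ∈ V ∧ D.φ v 1 = 0}
  mul_mem' := by
    rintro a b ⟨ha, ha'⟩ ⟨hb, hb'⟩
    refine ⟨V.mul_mem ha hb, ?_⟩
    rw [D.φ_mul a ha b hb, Pi.add_apply, ha', hb', add_zero]
  one_mem' := ⟨V.one_mem, by rw [D.φ_one]; rfl⟩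
  inv_mem' := by
    rintro a ⟨ha, ha'⟩
    refine ⟨V.inv_mem ha, ?_⟩
    rw [D.φ_inv ha, Pi.neg_apply, ha', neg_zero]

theorem mem_W {v : G} : v ∈ D.W ↔ v ∈ V ∧ D.φ v 1 = 0 := Iff.rfl

theorem W_le : D.W ≤ V := fun _ h => h.1

theorem conj_T {t v : G} (ht : t ∈ T) (hv : v ∈ V) :
    D.φ (t * v * t⁻¹) 0 = D.φ v 0 + Dk.eb (D.r t) * D.φ v 1 ∧
      D.φ (t * v * t⁻¹) 1 = D.φ v 1 := by
  have h0 := D.conj0 (D.T_le ht) hv
  have h1 := D.conj1 (D.T_le ht) hv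
  obtain ⟨hc, ha, hd⟩ := ((D.mem_T t).mp ht).2
  rw [ha, one_mul] at h0
  rw [hc, hd, zero_mul, zero_add, one_mul] at h1
  exact ⟨h0, h1⟩

theorem comm_T_iff {t v : G} (ht : t ∈ T) (hv : v ∈ V) :
    t * v = v * t ↔ Dk.eb (D.r t) * D.φ v 1 = 0 := by
  rw [D.comm_iff (D.T_le ht) hv]
  obtain ⟨h0, h1⟩ := D.conj_T ht hv
  constructor
  · intro h
    have h2 := congrFun h 0
    rw [h0] at h2
    linear_combination h2
  · intro h
    funext i
    fin_cases i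
    · show D.φ (t * v * t⁻¹) 0 = D.φ v 0
      rw [h0, h, add_zero]
    · exact h1

theorem eb_ne_zero {t : G} (ht : t ∈ T) (h1 : t ≠ 1) : Dk.eb (D.r t) ≠ 0 := by
  intro h
  apply h1
  apply D.r_inj t (D.T_le ht) 1 L.one_mem
  rw [D.r_one, D.r_of_T ht, h, Dk.uu_zero]

theorem inf_centralizer_T : V ⊓ Subgroup.centralizer (T : Set G) = D.W := by
  ext v
  rw [Subgroup.mem_inf, Subgroup.mem_centralizer_iff, mem_W]
  constructor
  · rintro ⟨hv, hc⟩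
    refine ⟨hv, ?_⟩
    obtain ⟨t, ht, hr⟩ := D.exists_T 1
    have h2 := (D.comm_T_iff ht hv).mp (hc t ht)
    rw [hr] at h2
    simpa using h2
  · rintro ⟨hv, h⟩
    refine ⟨hv, fun t ht => ?_⟩
    rw [D.comm_T_iff ht hv, h, mul_zero]

theorem inf_centralizer_singleton {s : G} (hs : s ∈ T) (h1 : s ≠ 1) :
    V ⊓ Subgroup.centralizer ({s} : Set G) = D.W := by
  ext v
  rw [Subgroup.mem_inf, Subgroup.mem_centralizer_iff, mem_W]
  constructor
  · rintro ⟨hv, hc⟩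
    refine ⟨hv, ?_⟩
    have h2 := (D.comm_T_iff hs hv).mp (hc s rfl)
    exact (mul_eq_zero.mp h2).resolve_left (D.eb_ne_zero hs h1)
  · rintro ⟨hv, h⟩
    refine ⟨hv, fun t ht => ?_⟩
    rw [Set.mem_singleton_iff] at ht
    subst ht
    rw [D.comm_T_iff hs hv, h, mul_zero]

theorem comm_mem {v t : G} (hv : v ∈ V) (ht : t ∈ T) :
    v * t * v⁻¹ * t⁻¹ ∈ D.W ∧ D.φ (v * t * v⁻¹ * t⁻¹) 0 = -(Dk.eb (D.r t) * D.φ v 1) := by
  have e : v * t * v⁻¹ * t⁻¹ = v * (t * v⁻¹ * t⁻¹) := by group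
  have hv' := V.inv_mem hv
  have hc := D.conj_T ht hv'
  have hm := (D.conj t (D.T_le ht) v⁻¹ hv').1
  rw [e]
  refine ⟨⟨V.mul_mem hv hm, ?_⟩, ?_⟩
  · rw [D.φ_mul v hv _ hm, Pi.add_apply, hc.2, D.φ_inv hv, Pi.neg_apply, add_neg_cancel]
  · rw [D.φ_mul v hv _ hm, Pi.add_apply, hc.1, D.φ_inv hv, Pi.neg_apply, Pi.neg_apply]
    ring

theorem r_pow {l : G} (hl : l ∈ L) (k : ℕ) : D.r (l ^ k) = D.r l ^ k := by
  induction k with
  | zero => rw [pow_zero, pow_zero, D.r_one]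
  | succ k ih => rw [pow_succ, pow_succ, D.r_mul _ (L.pow_mem hl k) _ hl, ih]

theorem conj_mem_T {g t : G} (hg : g ∈ L) (hc : Dk.ec (D.r g) = 0) (ht : t ∈ T) :
    g * t * g⁻¹ ∈ T := by
  have htL := D.T_le ht
  refine (D.mem_T _).mpr ⟨L.mul_mem (L.mul_mem hg htL) (L.inv_mem hg), ?_⟩
  rw [D.r_mul _ (L.mul_mem hg htL) _ (L.inv_mem hg), D.r_mul _ hg _ htL, D.r_inv hg]
  obtain ⟨h1, h2, h3⟩ := ((D.mem_T t).mp ht).2
  have hd := Dk.det_eq (D.r g)
  rw [hc, mul_zero, sub_zero] at hd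
  refine ⟨?_, ?_, ?_⟩
  · simp only [Dk.ec_mul, Dk.ed_mul, Dk.ea_inv, Dk.ec_inv, hc, h1, h2, h3]; ring
  · simp only [Dk.ea_mul, Dk.eb_mul, Dk.ea_inv, Dk.ec_inv, hc, h1, h2, h3]
    linear_combination hd
  · simp only [Dk.ed_mul, Dk.ec_mul, Dk.ed_inv, Dk.eb_inv, hc, h1, h2, h3]
    linear_combination hd

theorem mem_normalizer {g : G} (hg : g ∈ L) (hc : Dk.ec (D.r g) = 0) :
    g ∈ Subgroup.normalizer (T : Set G) := by
  rw [Subgroup.mem_normalizer_iff]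
  intro h
  constructor
  · intro hh
    exact D.conj_mem_T hg hc hh
  · intro hh
    have hc' : Dk.ec (D.r g⁻¹) = 0 := by rw [D.r_inv hg, Dk.ec_inv, hc, neg_zero]
    have h2 := D.conj_mem_T (L.inv_mem hg) hc' hh
    have e : g⁻¹ * (g * h * g⁻¹) * g⁻¹⁻¹ = h := by group
    rw [e] at h2
    exact h2

theorem mem_conj_cent {g v : G} (hg : g ∈ L) (hv : v ∈ V) :
    v ∈ Subgroup.centralizer ((T.map (MulAut.conj g).toMonoidHom : Subgroup G) : Set G) ↔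
      Dk.ea (D.r g) * D.φ v 1 = Dk.ec (D.r g) * D.φ v 0 := by
  have hg' := L.inv_mem hg
  have hv' : g⁻¹ * v * g ∈ V := by
    have := (D.conj g⁻¹ hg' v hv).1
    rwa [inv_inv] at this
  have h1 : D.φ (g⁻¹ * v * g) 1 = -Dk.ec (D.r g) * D.φ v 0 + Dk.ea (D.r g) * D.φ v 1 := by
    have := D.conj1 hg' hv
    rw [inv_inv, D.r_inv hg, Dk.ec_inv, Dk.ed_inv] at this
    exact this
  rw [Subgroup.mem_centralizer_iff]
  constructor
  · intro h
    obtain ⟨t, ht, hr⟩ := D.exists_T 1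
    have h2 : g * t * g⁻¹ * v = v * (g * t * g⁻¹) :=
      h _ ⟨t, ht, by simp [MulAut.conj_apply]⟩
    have h3 : t * (g⁻¹ * v * g) = (g⁻¹ * v * g) * t := by
      have e1 : t * (g⁻¹ * v * g) = g⁻¹ * (g * t * g⁻¹ * v) * g := by group
      have e2 : (g⁻¹ * v * g) * t = g⁻¹ * (v * (g * t * g⁻¹)) * g := by group
      rw [e1, e2, h2]
    have h4 := (D.comm_T_iff ht hv').mp h3
    rw [hr] at h4
    have h5 : D.φ (g⁻¹ * v * g) 1 = 0 := by simpa using h4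
    rw [h1] at h5
    linear_combination h5
  · intro h y hy
    obtain ⟨t, ht, rfl⟩ := hy
    have h5 : D.φ (g⁻¹ * v * g) 1 = 0 := by rw [h1]; linear_combination h
    have h3 : t * (g⁻¹ * v * g) = (g⁻¹ * v * g) * t := by
      rw [D.comm_T_iff ht hv', h5, mul_zero]
    show g * t * g⁻¹ * v = v * (g * t * g⁻¹)
    have e1 : g * t * g⁻¹ * v = g * (t * (g⁻¹ * v * g)) * g⁻¹ := by group
    have e2 : v * (g * t * g⁻¹) = g * ((g⁻¹ * v * g) * t) * g⁻¹ := by group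
    rw [e1, e2, h3]

theorem exists_torus {a : F} (ha : a ≠ 0) :
    ∃ h ∈ L ⊓ Subgroup.normalizer (T : Set G), ∀ v ∈ V,
      D.φ (h * v * h⁻¹) 0 = a * D.φ v 0 ∧ D.φ (h * v * h⁻¹) 1 = a⁻¹ * D.φ v 1 := by
  obtain ⟨h, hh, hr⟩ := D.r_surj (Dk.mk4 a 0 0 a⁻¹ (by rw [mul_inv_cancel₀ ha]; ring))
  refine ⟨h, ⟨hh, D.mem_normalizer hh (by rw [hr]; rfl)⟩, ?_⟩
  intro v hv
  have h0 := D.conj0 hh hv
  have h1 := D.conj1 hh hv
  rw [hr] at h0 h1
  simp only [Dk.ea_mk4, Dk.eb_mk4, Dk.ec_mk4, Dk.ed_mk4, zero_mul, add_zero, zero_add] at h0 h1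
  exact ⟨h0, h1⟩

theorem eq_one_of_φ {v : G} (hv : v ∈ V) (h0 : D.φ v 0 = 0) (h1 : D.φ v 1 = 0) : v = 1 := by
  apply D.φ_ext hv V.one_mem
  · rw [h0, D.φ_one]; rfl
  · rw [h1, D.φ_one]; rfl

theorem fixed_trivial (D : NatData F V L T) {p : ℕ} [Fact p.Prime] [CharP F p] {x v : G} (hx : x ∈ L) (hx1 : x ≠ 1)
    (hcop : (orderOf x).Coprime p) (hv : v ∈ V) (hc : x * v = v * x) : v = 1 := by
  have h := (D.comm_iff hx hv).mp hc
  have h0 := D.conj0 hx hv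
  have h1 := D.conj1 hx hv
  rw [h] at h0 h1
  by_contra hne
  have hd := Dk.det_eq (D.r x)
  have htr : Dk.tr (D.r x) = 2 := by
    unfold Dk.tr
    by_cases hz : D.φ v 0 = 0
    · have hz1 : D.φ v 1 ≠ 0 := fun h2 => hne (D.eq_one_of_φ hv hz h2)
      rw [hz, mul_zero, zero_add] at h0 h1
      have hb : Dk.eb (D.r x) = 0 := by
        rcases mul_eq_zero.mp h0.symm with h3 | h3
        · exact h3
        · exact absurd h3 hz1
      have hdd : Dk.ed (D.r x) = 1 := by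
        have : (Dk.ed (D.r x) - 1) * D.φ v 1 = 0 := by linear_combination -h1
        rcases mul_eq_zero.mp this with h3 | h3
        · linear_combination h3
        · exact absurd h3 hz1
      rw [hb, hdd, zero_mul, sub_zero, mul_one] at hd
      rw [hd, hdd]; norm_num
    · have key : (Dk.ea (D.r x) + Dk.ed (D.r x) - 2) * D.φ v 0 = 0 := by
        linear_combination (D.φ v 0) * hd - (1 - Dk.ed (D.r x)) * h0 - Dk.eb (D.r x) * h1
      rcases mul_eq_zero.mp key with h3 | h3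
      · linear_combination h3
      · exact absurd h3 hz
  have hp := Dk.unip_pow_char p (D.r x) htr
  have hxp : x ^ p = 1 := by
    apply D.r_inj _ (L.pow_mem hx p) 1 L.one_mem
    rw [D.r_pow hx, hp, D.r_one]
  have ho : orderOf x ∣ p := orderOf_dvd_of_pow_eq_one hxp
  have h1o : orderOf x = 1 := Nat.Coprime.eq_one_of_dvd hcop ho
  exact hx1 (orderOf_eq_one_iff.mp h1o)

end NatData

end Cfsg.Agent.Lib.helper20.NatSL2
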