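import Mathlib

set_option autoImplicit false

open scoped commutatorElement

namespace Cfsg.Agent.Lib.helper20.S1454Y3

/-- In a nontrivial finite abelian `p`-group the `p`-th power map is not surjective. -/
theorem exists_not_pow {B : Type*} [CommGroup B] [Finite B] [Nontrivial B] (p : ℕ) [Fact p.Prime]
    (hB : IsPGroup p B) : ∃ b : B, ∀ a : B, a ^ p ≠ b := by
  classical
  by_contra hcon
  push Not at hcon
  have hsurj : Function.Surjective (fun a : B => a ^ p) := fun b => hcon b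
  have hinj : Function.Injective (fun a : B => a ^ p) := Finite.injective_iff_surjective.mpr hsurj
  obtain ⟨a, ha⟩ := exists_ne (1 : B)
  obtain ⟨k, hk⟩ := hB a
  have hex : ∃ k : ℕ, a ^ (p ^ k) = 1 := ⟨k, hk⟩
  have hk0 : a ^ (p ^ Nat.find hex) = 1 := Nat.find_spec hex
  have hk0pos : Nat.find hex ≠ 0 := by
    intro h0
    rw [h0] at hk0
    simp at hk0
    exact ha hk0
  obtain ⟨m, hm⟩ := Nat.exists_eq_succ_of_ne_zero hk0pos
  have hlt : m < Nat.find hex := by omega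
  have hne : a ^ (p ^ m) ≠ 1 := Nat.find_min hex hlt
  have h1 : (a ^ (p ^ m)) ^ p = (1 : B) ^ p := by
    rw [one_pow, ← pow_mul, ← pow_succ, ← Nat.succ_eq_add_one, ← hm]
    exact hk0
  exact hne (hinj h1)

theorem exists_frat {H : Type*} [Group H] [Finite H] (p : ℕ) [Fact p.Prime] (R : Subgroup H) [R.Normal] (hR : IsPGroup p R) (hne : R ≠ ⊥) : ∃ Φ : Subgroup H, Φ.Normal ∧ Φ ≤ R ∧ Φ ≠ R ∧ (∀ x ∈ R, x ^ p ∈ Φ) ∧ (∀ x ∈ R, ∀ y ∈ R, ⁅x, y⁆ ∈ Φ) := by
  classical
  let T : Set H := {z | (∃ x ∈ R, z = x ^ p) ∨ (∃ x ∈ R, ∃ y ∈ R, z = ⁅x, y⁆)}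
  have hTR : T ⊆ (R : Set H) := by
    rintro z (⟨x, hx, rfl⟩ | ⟨x, hx, y, hy, rfl⟩)
    · exact R.pow_mem hx p
    · rw [commutatorElement_def]
      exact R.mul_mem (R.mul_mem (R.mul_mem hx hy) (R.inv_mem hx)) (R.inv_mem hy)
  -- the abelianization of R and an element without p-th root
  haveI : Nontrivial ↥R := (Subgroup.nontrivial_iff_ne_bot R).mpr hne
  haveI : Group.IsNilpotent ↥R := hR.isNilpotent
  have hlt : commutator ↥R < ⊤ := Group.IsSolvable.commutator_lt_top_of_nontrivial ↥R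
  haveI : Nontrivial (Abelianization ↥R) := by
    by_contra hnt
    rw [not_nontrivial_iff_subsingleton] at hnt
    have := QuotientGroup.subgroup_eq_top_of_subsingleton (commutator ↥R) hnt
    exact (ne_of_lt hlt) this
  have hBp : IsPGroup p (Abelianization ↥R) := hR.to_quotient (commutator ↥R)
  obtain ⟨b₀, hb₀⟩ := exists_not_pow p hBp
  obtain ⟨x₀, hx₀⟩ : ∃ x₀ : ↥R, Abelianization.of x₀ = b₀ := QuotientGroup.mk_surjective b₀
  -- the proper subgroup K
  let S₀ : Subgroup (Abelianization ↥R) := (powMonoidHom p : Abelianization ↥R →* Abelianization ↥R).range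
  let K : Subgroup H := (S₀.comap (Abelianization.of : ↥R →* Abelianization ↥R)).map R.subtype
  have hTK : T ⊆ (K : Set H) := by
    rintro z (⟨x, hx, rfl⟩ | ⟨x, hx, y, hy, rfl⟩)
    · refine ⟨(⟨x, hx⟩ : ↥R) ^ p, ?_, by simp⟩
      show Abelianization.of ((⟨x, hx⟩ : ↥R) ^ p) ∈ S₀
      rw [map_pow]
      exact ⟨Abelianization.of (⟨x, hx⟩ : ↥R), rfl⟩
    · refine ⟨⁅(⟨x, hx⟩ : ↥R), (⟨y, hy⟩ : ↥R)⁆, ?_, by simp [commutatorElement_def]⟩
      show Abelianization.of ⁅(⟨x, hx⟩ : ↥R), (⟨y, hy⟩ : ↥R)⁆ ∈ S₀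
      rw [map_commutatorElement, commutatorElement_eq_one_iff_commute.mpr (Commute.all _ _)]
      exact S₀.one_mem
  -- conjugation invariance of T
  have hconjT : ∀ g : H, ∀ z ∈ T, g * z * g⁻¹ ∈ T := by
    rintro g z (⟨x, hx, rfl⟩ | ⟨x, hx, y, hy, rfl⟩)
    · left
      refine ⟨g * x * g⁻¹, ‹R.Normal›.conj_mem x hx g, ?_⟩
      rw [conj_pow]
    · right
      refine ⟨g * x * g⁻¹, ‹R.Normal›.conj_mem x hx g, g * y * g⁻¹, ‹R.Normal›.conj_mem y hy g, ?_⟩
      simp only [commutatorElement_def]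
      group
  have hnc : Subgroup.normalClosure T = Subgroup.closure T := by
    apply le_antisymm
    · apply (Subgroup.closure_le _).mpr
      intro z hz
      rw [Group.mem_conjugatesOfSet_iff] at hz
      obtain ⟨a, haT, hconj⟩ := hz
      obtain ⟨g, hg⟩ := isConj_iff.mp hconj
      rw [← hg]
      exact Subgroup.subset_closure (hconjT g a haT)
    · exact Subgroup.closure_le_normalClosure
  refine ⟨Subgroup.normalClosure T, Subgroup.normalClosure_normal, Subgroup.normalClosure_le_normal hTR, ?_, ?_, ?_⟩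
  · intro hΦR
    have hxR : (x₀ : H) ∈ Subgroup.normalClosure T := by rw [hΦR]; exact x₀.2
    rw [hnc] at hxR
    have hxK : (x₀ : H) ∈ K := (Subgroup.closure_le K).mpr hTK hxR
    obtain ⟨k, hk, hkx⟩ := hxK
    have hkx' : k = x₀ := Subtype.ext hkx
    rw [hkx'] at hk
    have hk' : Abelianization.of x₀ ∈ S₀ := hk
    rw [hx₀] at hk'
    obtain ⟨a, ha⟩ := hk'
    exact hb₀ a ha
  · intro x hx
    exact Subgroup.subset_normalClosure (Or.inl ⟨x, hx, rfl⟩)
  · intro x hx y hy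
    exact Subgroup.subset_normalClosure (Or.inr ⟨x, hx, y, hy, rfl⟩)

end Cfsg.Agent.Lib.helper20.S1454Y3
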