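import Mathlib
import Cfsg.Agent.Lib.helper20.Zipper

set_option autoImplicit false

namespace Cfsg.Agent.Lib.helper20

open Pointwise

universe u

/-- Relative form of: a conjugation-closed family of subnormal subgroups, a proper subfamily;
some member outside the subfamily normalizes the join of the subfamily. -/
theorem exists_normalizes_sSup_rel {G : Type u} [Group G] [Finite G] (V : Subgroup G)
    (S S₀ : Set (Subgroup G)) (hS : ∀ U ∈ S, U ≤ V ∧ (U.subgroupOf V).IsSubnormal)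
    (hconj : ∀ U ∈ S, ∀ g ∈ V, MulAut.conj g • U ∈ S) (h₀ : S₀ ⊂ S) :
    ∃ X ∈ S, X ∉ S₀ ∧ X ≤ Subgroup.normalizer ((sSup S₀ : Subgroup G) : Set G) := by
  obtain ⟨hG₀V, hG₀sub⟩ := subn_sSup (T := S₀) (H := V) (fun A hA => hS A (h₀.subset hA))
  by_cases hV : V ≤ Subgroup.normalizer ((sSup S₀ : Subgroup G) : Set G)
  · obtain ⟨X, hXS, hXS₀⟩ := Set.exists_of_ssubset h₀
    exact ⟨X, hXS, hXS₀, (hS X hXS).1.trans hV⟩
  · obtain ⟨x, hxV, hxN, hx⟩ := exists_conj_le_normalizer_rel hG₀V hG₀sub hV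
    have hex : ∃ U ∈ S₀, MulAut.conj x • U ∉ S₀ := by
      by_contra hc
      simp only [not_exists, not_and, not_not] at hc
      apply hxN
      apply mem_normalizer_of_conj_smul_le
      rw [conj_smul_le_iff]
      have hle : sSup S₀ ≤ (sSup S₀).comap (MulAut.conj x).toMonoidHom := by
        apply sSup_le
        intro U hU u hu
        show x * u * x⁻¹ ∈ sSup S₀
        exact (le_sSup (hc U hU)) (conj_mem_conj_smul hu)
      intro s hs
      exact hle hs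
    obtain ⟨U, hU, hUx⟩ := hex
    refine ⟨MulAut.conj x • U, hconj U (h₀.subset hU) x hxV, hUx, ?_⟩
    rw [conj_smul_le_iff]
    intro u hu
    exact hx u (le_sSup hU hu)

/-- A zipper-type uniqueness lemma for a family of subgroups. -/
theorem zipper_family {G : Type u} [Group G] [Finite G] (A : Subgroup G) (U : Set (Subgroup G))
    (hU : U.Nonempty) (S : Subgroup G → Set (Subgroup G))
    (hS : ∀ V B : Subgroup G, B ∈ S V ↔
      (∃ g : G, B = MulAut.conj g • A) ∧ B ≤ V ∧ (B.subgroupOf V).IsSubnormal)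
    (h2 : ∀ V ∈ U, ∀ W ∈ U, ∀ B ∈ S W, B ≤ V → B ∈ S V)
    (h3 : ∀ V ∈ U, ∀ W ∈ U, ∃ X ∈ U,
      Subgroup.normalizer ((sSup (S V ∩ S W) : Subgroup G) : Set G) ≤ X) :
    ∃ M ∈ U, ∀ V ∈ U, V ≤ M := by
  classical
  have hUfin : U.Finite := Set.toFinite U
  have hconjS : ∀ V : Subgroup G, ∀ B ∈ S V, ∀ v ∈ V, MulAut.conj v • B ∈ S V := by
    intro V B hB v hv
    rw [hS] at hB ⊢
    obtain ⟨⟨g, rfl⟩, hBV, hBsub⟩ := hB
    have hVv : MulAut.conj v • V = V := Subgroup.conj_smul_eq_self_of_mem hv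
    refine ⟨⟨v * g, ?_⟩, ?_, ?_⟩
    · rw [map_mul, mul_smul]
    · rw [conj_smul_le_iff]
      intro s hs
      exact V.mul_mem (V.mul_mem hv (hBV hs)) (V.inv_mem hv)
    · have := subn_conj v hBsub
      rwa [hVv] at this
  have hnorm : ∀ V : Subgroup G,
      V ≤ Subgroup.normalizer ((sSup (S V) : Subgroup G) : Set G) := by
    intro V v hv
    apply mem_normalizer_of_conj_smul_le
    rw [conj_smul_le_iff]
    have hle : sSup (S V) ≤ (sSup (S V)).comap (MulAut.conj v).toMonoidHom := by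
      apply sSup_le
      intro B hB b hb
      show v * b * v⁻¹ ∈ sSup (S V)
      exact (le_sSup (hconjS V B hB v hv)) (conj_mem_conj_smul hb)
    intro s hs
    exact hle hs
  have hrel : ∀ V : Subgroup G, ∀ S₀ : Set (Subgroup G), S₀ ⊂ S V →
      ∃ X ∈ S V, X ∉ S₀ ∧ X ≤ Subgroup.normalizer ((sSup S₀ : Subgroup G) : Set G) := by
    intro V S₀ h₀
    exact exists_normalizes_sSup_rel V (S V) S₀ (fun B hB => ((hS V B).mp hB).2) (hconjS V) h₀
  have hnotsub : ∀ V W : Subgroup G, Maximal (· ∈ U) V → Maximal (· ∈ U) W → V ≠ W →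
      ¬ S V ⊆ S W := by
    intro V W hV hW hVW hsub
    have hSig : S V ∩ S W = S V := Set.inter_eq_left.mpr hsub
    obtain ⟨X, hXU, hNX⟩ := h3 V hV.1 W hW.1
    rw [hSig] at hNX
    have hXV : X ≤ V := hV.2 hXU ((hnorm V).trans hNX)
    have hNV : Subgroup.normalizer ((sSup (S V) : Subgroup G) : Set G) ≤ V := hNX.trans hXV
    by_cases hsub' : S W ⊆ S V
    · have heq : S W = S V := Set.Subset.antisymm hsub' hsub
      have hWV : W ≤ V := by
        have := hnorm W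
        rw [heq] at this
        exact this.trans hNV
      exact hVW (le_antisymm (hW.2 hV.1 hWV) hWV)
    · have hss : S V ⊂ S W := ⟨hsub, hsub'⟩
      obtain ⟨Y, hYW, hYV, hYN⟩ := hrel W (S V) hss
      exact hYV (h2 V hV.1 W hW.1 Y hYW (hYN.trans hNV))
  by_contra hcon
  simp only [not_exists, not_and] at hcon
  obtain ⟨V₀, hV₀⟩ := hU
  obtain ⟨M₀, hV₀M₀, hM₀⟩ := hUfin.exists_le_maximal hV₀
  have hex2 : ∃ W, Maximal (· ∈ U) W ∧ W ≠ M₀ := by
    by_contra hc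
    simp only [not_exists, not_and, not_not] at hc
    apply hcon M₀ hM₀.1
    intro V hV
    obtain ⟨M', hVM', hM'⟩ := hUfin.exists_le_maximal hV
    rw [hc M' hM'] at hVM'
    exact hVM'
  obtain ⟨W₀, hW₀, hW₀M₀⟩ := hex2
  let P : Set (Subgroup G × Subgroup G) :=
    {p | Maximal (· ∈ U) p.1 ∧ Maximal (· ∈ U) p.2 ∧ p.1 ≠ p.2}
  have hPne : P.Nonempty := ⟨(M₀, W₀), hM₀, hW₀, hW₀M₀.symm⟩
  obtain ⟨⟨V, W⟩, ⟨hV, hW, hVW⟩, hmax⟩ :=
    Set.exists_max_image P (fun p => (S p.1 ∩ S p.2).ncard) (Set.toFinite P) hPne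
  have hV' : S V ∩ S W ⊂ S V :=
    ⟨Set.inter_subset_left, fun h => hnotsub V W hV hW hVW (fun B hB => (h hB).2)⟩
  have hW' : S V ∩ S W ⊂ S W :=
    ⟨Set.inter_subset_right, fun h => hnotsub W V hW hV (Ne.symm hVW) (fun B hB => (h hB).1)⟩
  obtain ⟨X, hXV, hXSig, hXN⟩ := hrel V _ hV'
  obtain ⟨Y, hYW, hYSig, hYN⟩ := hrel W _ hW'
  obtain ⟨U₀, hU₀, hNU₀⟩ := h3 V hV.1 W hW.1
  obtain ⟨U₁, hU₀U₁, hU₁⟩ := hUfin.exists_le_maximal hU₀
  have hNU₁ := hNU₀.trans hU₀U₁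
  have hSigU₁ : S V ∩ S W ⊆ S U₁ := by
    intro B hB
    refine h2 U₁ hU₁.1 V hV.1 B hB.1 ?_
    exact (le_sSup hB).trans (Subgroup.le_normalizer.trans hNU₁)
  have hXU₁ : X ∈ S U₁ := h2 U₁ hU₁.1 V hV.1 X hXV (hXN.trans hNU₁)
  have hYU₁ : Y ∈ S U₁ := h2 U₁ hU₁.1 W hW.1 Y hYW (hYN.trans hNU₁)
  have hVU₁ : V = U₁ := by
    by_contra hne
    have h4 : (S V ∩ S U₁).ncard ≤ (S V ∩ S W).ncard := hmax (V, U₁) ⟨hV, hU₁, hne⟩
    have hss : S V ∩ S W ⊂ S V ∩ S U₁ :=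
      ⟨fun B hB => ⟨hB.1, hSigU₁ hB⟩, fun h => hXSig (h ⟨hXV, hXU₁⟩)⟩
    have := Set.ncard_lt_ncard hss (Set.toFinite _)
    omega
  have hWU₁ : W = U₁ := by
    by_contra hne
    have h4 : (S W ∩ S U₁).ncard ≤ (S V ∩ S W).ncard := hmax (W, U₁) ⟨hW, hU₁, hne⟩
    have hss : S V ∩ S W ⊂ S W ∩ S U₁ :=
      ⟨fun B hB => ⟨hB.2, hSigU₁ hB⟩, fun h => hYSig (h ⟨hYW, hYU₁⟩)⟩
    have := Set.ncard_lt_ncard hss (Set.toFinite _)
    omega
  exact hVW (hVU₁.trans hWU₁.symm)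

end Cfsg.Agent.Lib.helper20
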